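import Cfsg.Agent.H720.Tall.Locl
import Cfsg.Agent.H263.ChermakDelgado

/-!
# S2927, task FIB: `Y` does not centralise `S ∩ K₁` (helper720)
-/

set_option autoImplicit false
set_option linter.unusedSectionVars false

namespace Cfsg.Agent.H720.Tall

open Subgroup Cfsg
open Cfsg.Agent.H239.CharPLocal (CP)
open Cfsg.Agent.H226.Tall
open Cfsg.Agent.H369.Socle
open Cfsg.Agent.SignalizersComponents.Components
open scoped Pointwise

universe u

section Tall

variable {G : Type u} [Group G] [Finite G] {S : Sylow 2 G} {Q M Y : Subgroup G} {x : G}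

/-- `M` normalises `S ∩ E` if `Y` centralises `S ∩ K₁` -/
theorem M_norm_SE (h : Tall S Q M Y x) {K₁ K₂ : Subgroup G} (h1 : K₁ ∈ Cm G) (h2 : K₂ ∈ Cm G) (hne : K₁ ≠ K₂)
    (hY : ∀ y ∈ Y, ∀ s ∈ (S : Subgroup G) ⊓ K₁, y * s * y⁻¹ = s) {m s : G} (hm : m ∈ M)
    (hs : s ∈ (S : Subgroup G) ⊓ EE G) : m * s * m⁻¹ ∈ (S : Subgroup G) ⊓ EE G := by
  have F := fam h
  have hn := EE_normal h
  have hoth : ∀ K ∈ Cm G, ∃ K' ∈ Cm G, K ≠ K' := by
    intro K hK
    by_cases e : K = K₁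
    · exact ⟨K₂, h2, e ▸ hne⟩
    · exact ⟨K₁, h1, e⟩
  have h3 : (S : Subgroup G) ⊓ EE G ≤ O2 M := by
    intro t ht
    rw [h.T_eq]
    refine mem_inf.2 ⟨ht.1, mem_centralizer_iff.2 fun y hy => ?_⟩
    have h4 : y * t * y⁻¹ = t := by
      refine ext_pr F fun K hK => ?_
      obtain ⟨k, hk⟩ := exists_pr F hK ht.2
      obtain ⟨K', hK', hne'⟩ := hoth K hK
      have h5 := hk.conj y
      rw [Y_norm h hK hK' hne' hy] at h5
      obtain ⟨q, hq, e⟩ := trans h h1 hK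
      have hqS := h.Q_le hq
      have hkS := pr_mem_S h hK ht.1 ht.2 hk
      have h6 := cj_inf_S hqS (mem_inf.2 ⟨hkS, e.symm ▸ hk.1⟩)
      have h7 : q⁻¹ * y * q ∈ Y := by
        have := M_norm_Y h (inv_mem (h.S_le_M hqS)) hy
        rwa [inv_inv] at this
      have h8 := hY _ h7 _ h6
      have h9 : y * k * y⁻¹ = k := by
        calc y * k * y⁻¹ = q * ((q⁻¹ * y * q) * (q⁻¹ * k * q) * (q⁻¹ * y * q)⁻¹) * q⁻¹ := by group
          _ = k := by rw [h8]; group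
      rw [h9] at h5
      exact ⟨k, h5, hk⟩
    rw [mul_inv_eq_iff_eq_mul] at h4
    exact h4
  have h4 := conj_mem_O2 hm (h3 hs)
  exact mem_inf.2 ⟨O2_le_sylow h.S_le_M h4, hn.conj_mem s hs.2 m⟩

/-- `|M| |S ∩ A| = |S| |A|` for the stabiliser `A` of `K₁` -/
theorem card_M (h : Tall S Q M Y x) {K₁ : Subgroup G} (h1 : K₁ ∈ Cm G) :
    Nat.card ↥M * Nat.card ↥((S : Subgroup G) ⊓ (M ⊓ normalizer (K₁ : Set G))) =
      Nat.card ↥(S : Subgroup G) * Nat.card ↥(M ⊓ normalizer (K₁ : Set G)) := by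
  have F := fam h
  have h2 : ((S : Subgroup G) : Set G) * ((M ⊓ normalizer (K₁ : Set G) : Subgroup G) : Set G) = (M : Set G) := by
    ext m
    constructor
    · rintro ⟨s, hs, a, ha, rfl⟩
      exact mul_mem (h.S_le_M hs) ha.1
    · intro hm
      obtain ⟨q, hq, e⟩ := trans h h1 (F.conj K₁ h1 m)
      refine ⟨q, h.Q_le hq, q⁻¹ * m, mem_inf.2 ⟨mul_mem (inv_mem (h.S_le_M (h.Q_le hq))) hm, ?_⟩, by
        change q * (q⁻¹ * m) = m
        group⟩
      rw [cj_eq_of_mem_normalizer, cj_mul, ← e, ← cj_mul, inv_mul_cancel, cj_one]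
  have h3 := H263.ChermakDelgado.ncard_mul_inf (S : Subgroup G) (M ⊓ normalizer (K₁ : Set G))
  rw [h2] at h3
  rw [← h3]
  congr 1

/-- a subgroup of `A` over `S ∩ A` has odd index in `A` -/
theorem odd_index (h : Tall S Q M Y x) {K₁ : Subgroup G} (h1 : K₁ ∈ Cm G) {B : Subgroup G}
    (hB : (S : Subgroup G) ⊓ (M ⊓ normalizer (K₁ : Set G)) ≤ B) (hBA : B ≤ M ⊓ normalizer (K₁ : Set G))
    (h2 : 2 * Nat.card ↥B ∣ Nat.card ↥(M ⊓ normalizer (K₁ : Set G))) : False := by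
  have hc := card_M h h1
  obtain ⟨c, hc'⟩ := h2
  have h3 := Subgroup.card_dvd_of_le hB
  obtain ⟨d, hd⟩ := h3
  -- `|M| = |S| * 2 * d * c`
  have h4 : Nat.card ↥M = Nat.card ↥(S : Subgroup G) * (2 * (d * c)) := by
    have hpos : 0 < Nat.card ↥((S : Subgroup G) ⊓ (M ⊓ normalizer (K₁ : Set G))) := Nat.card_pos
    apply Nat.eq_of_mul_eq_mul_right hpos
    rw [hc, hc', hd]
    ring
  -- `|M : S|` is odd
  have h5 : ¬ 2 ∣ (S.subtype h.S_le_M : Subgroup ↥M).index := (S.subtype h.S_le_M).not_dvd_index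
  apply h5
  have h6 := (S.subtype h.S_le_M : Subgroup ↥M).card_mul_index
  have h7 : Nat.card ↥(S.subtype h.S_le_M : Subgroup ↥M) = Nat.card ↥(S : Subgroup G) :=
    Nat.card_congr (Subgroup.subgroupOfEquivOfLe h.S_le_M).toEquiv
  rw [h7, h4] at h6
  have h8 : (S.subtype h.S_le_M : Subgroup ↥M).index = 2 * (d * c) :=
    Nat.eq_of_mul_eq_mul_left Nat.card_pos h6
  rw [h8]
  exact dvd_mul_right _ _

/-- **the final contradiction** -/
theorem act_false (h : Tall S Q M Y x) {K₁ K₂ : Subgroup G} (h1 : K₁ ∈ Cm G) (h2 : K₂ ∈ Cm G) (hne : K₁ ≠ K₂)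
    (hY : ∀ y ∈ Y, ∀ s ∈ (S : Subgroup G) ⊓ K₁, y * s * y⁻¹ = s) {X₁ X₂ : Subgroup G}
    (hX1 : X₁ ≤ K₁) (hX2 : X₂ ≤ K₁) (hXX : X₁ ⊔ X₂ = K₁) (hX : X₁ ≠ X₂) (hO1 : O2 X₁ ≠ ⊥) (hO2 : O2 X₂ ≠ ⊥)
    (hP : ∀ s ∈ (S : Subgroup G), cj s K₁ = K₁ → cj s X₁ = X₁ ∧ cj s X₂ = X₂)
    (hN : ∀ m : G, cj m K₁ = K₁ → (∀ s ∈ (S : Subgroup G) ⊓ K₁, m * s * m⁻¹ ∈ (S : Subgroup G) ⊓ K₁) →
      (cj m X₁ = X₁ ∧ cj m X₂ = X₂) ∨ (cj m X₁ = X₂ ∧ cj m X₂ = X₁)) : False := by
  have F := fam h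
  -- `M ∩ N(K₁)` acts on the pair
  have hpair : ∀ m ∈ M, cj m K₁ = K₁ → (cj m X₁ = X₁ ∧ cj m X₂ = X₂) ∨ (cj m X₁ = X₂ ∧ cj m X₂ = X₁) := by
    intro m hm e
    refine hN m e fun s hs => ?_
    have h3 := M_norm_SE h h1 h2 hne hY hm (mem_inf.2 ⟨hs.1, comp_le_EE h1 hs.2⟩)
    exact mem_inf.2 ⟨h3.1, e ▸ conj_mem_cj hs.2⟩
  -- no swap
  have hns : ∀ m ∈ M, cj m K₁ = K₁ → cj m X₁ = X₁ ∧ cj m X₂ = X₂ := by
    by_contra hcon
    push Not at hcon
    obtain ⟨m, hm, e, hm'⟩ := hcon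
    have hsw : cj m X₁ = X₂ ∧ cj m X₂ = X₁ := by
      rcases hpair m hm e with h3 | h3
      · exact absurd h3.2 (hm' h3.1)
      · exact h3
    set A : Subgroup G := M ⊓ normalizer (K₁ : Set G) with hA
    set B : Subgroup G := A ⊓ normalizer (X₁ : Set G) with hB
    refine odd_index h h1 (B := B) ?_ inf_le_left ?_
    · intro s hs
      refine mem_inf.2 ⟨hs.2, ?_⟩
      rw [cj_eq_of_mem_normalizer]
      exact (hP s hs.1 (cj_eq_of_mem_normalizer.1 hs.2.2)).1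
    · -- the index is 2
      have hmA : m ∈ A := mem_inf.2 ⟨hm, cj_eq_of_mem_normalizer.2 e⟩
      have h3 : (B.subgroupOf A).index = 2 := by
        rw [Subgroup.index_eq_two_iff]
        refine ⟨⟨m, hmA⟩, fun b => ?_⟩
        have hb1 : cj (b : G) K₁ = K₁ := cj_eq_of_mem_normalizer.1 b.2.2
        have key : ∀ g : A, g ∈ B.subgroupOf A ↔ cj (g : G) X₁ = X₁ := by
          intro g
          rw [mem_subgroupOf]
          constructor
          · intro hg
            exact cj_eq_of_mem_normalizer.1 hg.2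
          · intro hg
            exact mem_inf.2 ⟨g.2, cj_eq_of_mem_normalizer.2 hg⟩
        rw [key, key]
        have e3 : cj ((b * ⟨m, hmA⟩ : A) : G) X₁ = cj (b : G) X₂ := by
          change cj ((b : G) * m) X₁ = _
          rw [cj_mul, hsw.1]
        rw [e3]
        rcases hpair b b.2.1 hb1 with h4 | h4
        · right
          refine ⟨h4.1, ?_⟩
          rw [h4.2]
          exact Ne.symm hX
        · left
          refine ⟨h4.2, ?_⟩
          rw [h4.1]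
          exact Ne.symm hX
      have h4 := (B.subgroupOf A).card_mul_index
      have h5 : Nat.card ↥(B.subgroupOf A) = Nat.card ↥B :=
        Nat.card_congr (Subgroup.subgroupOfEquivOfLe inf_le_left).toEquiv
      rw [h3, h5] at h4
      exact ⟨1, by rw [← h4]; ring⟩
  -- the groups `N(⟨X_j ^ S⟩)`
  have hfin : ∀ X : Subgroup G, X ≤ K₁ → O2 X ≠ ⊥ → (∀ m ∈ M, cj m K₁ = K₁ → cj m X = X) →
      X ≤ normalizer (Y : Set G) := by
    intro X hXK hOX hXM
    set L : Subgroup G := normalizer (Sp (S : Subgroup G) X : Set G) with hL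
    have hML : M ≤ L := le_normalizer_of_stab h h1 h.S_le_M fun m hm e => (hXM m hm e).le
    -- `O₂(X) ≤ O₂(Sp S X) ≤ O₂(L)`
    have hX1 : O2 X ≤ O2 (Sp (S : Subgroup G) X) := by
      refine O2_mono le_Sp ?_
      have h3 : Sp (S : Subgroup G) X ≤ normalizer (X : Set G) := by
        refine Sp_le fun s hs z hz => ?_
        by_cases e : cj s K₁ = K₁
        · rw [hXM s (h.S_le_M hs) e] at hz
          exact le_normalizer hz
        · refine mem_normalizer_of_conj_mem fun u hu => ?_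
          have hz' : z ∈ cj s K₁ := by
            rw [mem_cj] at hz ⊢
            exact hXK hz
          rw [← F.comm K₁ h1 _ (F.conj K₁ h1 s) (Ne.symm e) u (hXK hu) z hz', mul_inv_cancel_right]
          exact hu
      intro b hb a ha
      exact (mem_normalizer_iff.1 (h3 hb) a).1 ha
    have hX2 : O2 (Sp (S : Subgroup G) X) ≤ O2 L := by
      refine O2_mono le_normalizer ?_
      intro b hb a ha
      exact (mem_normalizer_iff.1 hb a).1 ha
    have hOL : O2 L ≠ ⊥ := by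
      intro hb
      have h3 := hX1.trans hX2
      rw [hb] at h3
      exact hOX (le_bot_iff.1 h3)
    have h3 := h.norm_Y L hML hOL
    exact (le_Sp.trans le_normalizer).trans h3
  have hK1 : K₁ ≤ normalizer (Y : Set G) := by
    rw [← hXX]
    exact sup_le (hfin X₁ hX1 hO1 fun m hm e => (hns m hm e).1) (hfin X₂ hX2 hO2 fun m hm e => (hns m hm e).2)
  have hMY : M ≤ normalizer (Y : Set G) := fun m hm => mem_normalizer_of_conj_mem fun y hy => M_norm_Y h hm hy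
  have hE : EE G ≤ normalizer (Y : Set G) := by
    refine sSup_le fun K hK z hz => ?_
    obtain ⟨q, hq, e⟩ := trans h h1 hK
    have hqN := hMY (h.S_le_M (h.Q_le hq))
    have h3 : q⁻¹ * z * q ∈ K₁ := mem_cj.1 (e ▸ hz)
    have h4 := mul_mem (mul_mem hqN (hK1 h3)) (inv_mem hqN)
    have e1 : q * (q⁻¹ * z * q) * q⁻¹ = z := by group
    rwa [e1] at h4
  have hn := EE_normal h
  have h3 : Y ⊓ EE G ≤ O2 (EE G) := by
    refine le_O2 ((S.isPGroup'.to_le (Y_le_S h)).to_le inf_le_left) inf_le_right fun g hg u hu => ?_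
    exact mem_inf.2 ⟨(mem_normalizer_iff.1 (hE hg) u).1 hu.1, hn.conj_mem u hu.2 g⟩
  have h4 : O2 (EE G) ≤ O2 (⊤ : Subgroup G) := O2_mono le_top fun b _ a ha => hn.conj_mem a ha b
  rw [pCore_of_top, pCore_eq_bot h] at h4
  obtain ⟨a, ha, haS⟩ := exists_ci h
  have h5 := h4 (h3 (mem_inf.2 ⟨h.omega a haS.2.2 haS.2.1, ha⟩))
  exact haS.1 (mem_bot.1 h5)

end Tall

end Cfsg.Agent.H720.Tall
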