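import Cfsg.Agent.H369.Socle
import Cfsg.Agent.S0542

/-!
# S2927, task FIB: projections onto the components (helper720)

`Fam 𝓒` (H369): pairwise commuting subgroups, permuted by conjugation, with trivial common centralizer.
`Pr K e k`: `e` acts on `K` as the element `k ∈ K`.
-/

set_option autoImplicit false
set_option linter.unusedSectionVars false

namespace Cfsg.Agent.H720.Tall

open Subgroup Cfsg
open Cfsg.Agent.H369.Socle

universe u

section

variable {G : Type u} [Group G]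

/-- `e` acts on `K` as the element `k ∈ K` -/
def Pr (K : Subgroup G) (e k : G) : Prop := k ∈ K ∧ ∀ x ∈ K, e * x * e⁻¹ = k * x * k⁻¹

variable {K K' : Subgroup G} {e e' k k' : G}

theorem Pr.mem (h : Pr K e k) : k ∈ K := h.1

theorem Pr.self (h : e ∈ K) : Pr K e e := ⟨h, fun _ _ => rfl⟩

theorem Pr.one (K : Subgroup G) : Pr K 1 1 := ⟨one_mem _, fun _ _ => rfl⟩

theorem Pr.mul (h : Pr K e k) (h' : Pr K e' k') : Pr K (e * e') (k * k') := by
  refine ⟨mul_mem h.1 h'.1, fun x hx => ?_⟩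
  calc e * e' * x * (e * e')⁻¹ = e * (e' * x * e'⁻¹) * e⁻¹ := by group
    _ = e * (k' * x * k'⁻¹) * e⁻¹ := by rw [h'.2 x hx]
    _ = k * (k' * x * k'⁻¹) * k⁻¹ := h.2 _ (mul_mem (mul_mem h'.1 hx) (inv_mem h'.1))
    _ = _ := by group

theorem Pr.inv (h : Pr K e k) : Pr K e⁻¹ k⁻¹ := by
  refine ⟨inv_mem h.1, fun x hx => ?_⟩
  have h1 := h.2 (k⁻¹ * x * k) (mul_mem (mul_mem (inv_mem h.1) hx) h.1)
  calc e⁻¹ * x * e⁻¹⁻¹ = e⁻¹ * (k * (k⁻¹ * x * k) * k⁻¹) * e := by group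
    _ = e⁻¹ * (e * (k⁻¹ * x * k) * e⁻¹) * e := by rw [h1]
    _ = k⁻¹ * x * k⁻¹⁻¹ := by group

theorem Pr.pow (h : Pr K e k) (n : ℕ) : Pr K (e ^ n) (k ^ n) := by
  induction n with
  | zero => rw [pow_zero, pow_zero]; exact Pr.one K
  | succ n ih => rw [pow_succ, pow_succ]; exact ih.mul h

theorem Pr.conj (h : Pr K e k) (g : G) : Pr (cj g K) (g * e * g⁻¹) (g * k * g⁻¹) := by
  refine ⟨conj_mem_cj h.1, fun x hx => ?_⟩
  rw [mem_cj] at hx
  have h1 := h.2 _ hx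
  calc g * e * g⁻¹ * x * (g * e * g⁻¹)⁻¹ = g * (e * (g⁻¹ * x * g) * e⁻¹) * g⁻¹ := by group
    _ = g * (k * (g⁻¹ * x * g) * k⁻¹) * g⁻¹ := by rw [h1]
    _ = _ := by group

/-- the elements that act on `K` as elements of `K` -/
def PrS (K : Subgroup G) : Subgroup G where
  carrier := {e | ∃ k, Pr K e k}
  mul_mem' := by
    rintro a b ⟨k, hk⟩ ⟨k', hk'⟩
    exact ⟨_, hk.mul hk'⟩
  one_mem' := ⟨1, Pr.one K⟩
  inv_mem' := by
    rintro a ⟨k, hk⟩
    exact ⟨_, hk.inv⟩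

/-- the elements that act on `K` as elements of `R ≤ K` -/
def PrR (K R : Subgroup G) : Subgroup G where
  carrier := {e | ∃ k ∈ R, Pr K e k}
  mul_mem' := by
    rintro a b ⟨k, hk1, hk⟩ ⟨k', hk1', hk'⟩
    exact ⟨_, mul_mem hk1 hk1', hk.mul hk'⟩
  one_mem' := ⟨1, one_mem _, Pr.one K⟩
  inv_mem' := by
    rintro a ⟨k, hk1, hk⟩
    exact ⟨_, inv_mem hk1, hk.inv⟩

/-- the projection of `H` on `K` -/
def prj (K H : Subgroup G) : Subgroup G where
  carrier := {k | ∃ e ∈ H, Pr K e k}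
  mul_mem' := by
    rintro a b ⟨k, hk1, hk⟩ ⟨k', hk1', hk'⟩
    exact ⟨_, mul_mem hk1 hk1', hk.mul hk'⟩
  one_mem' := ⟨1, one_mem _, Pr.one K⟩
  inv_mem' := by
    rintro a ⟨k, hk1, hk⟩
    exact ⟨_, inv_mem hk1, hk.inv⟩

theorem prj_le (K H : Subgroup G) : prj K H ≤ K := fun _ ⟨_, _, h⟩ => h.1

theorem inf_le_prj (K H : Subgroup G) : K ⊓ H ≤ prj K H := fun x hx => ⟨x, hx.2, Pr.self hx.1⟩

variable {𝓒 : Set (Subgroup G)}

theorem center_eq_one (F : Fam 𝓒) (hK : K ∈ 𝓒) (hk : k ∈ K) (h : ∀ x ∈ K, k * x * k⁻¹ = x) : k = 1 := by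
  refine F.faith k fun C hC x hx => ?_
  by_cases hCK : C = K
  · exact h x (hCK ▸ hx)
  · rw [← F.comm C hC K hK hCK x hx k hk, mul_inv_cancel_right]

theorem Pr.unique (F : Fam 𝓒) (hK : K ∈ 𝓒) (h : Pr K e k) (h' : Pr K e k') : k = k' := by
  have h1 : k'⁻¹ * k = 1 := by
    refine center_eq_one F hK (mul_mem (inv_mem h'.1) h.1) fun x hx => ?_
    have h2 := h.2 x hx
    have h3 := h'.2 x hx
    calc k'⁻¹ * k * x * (k'⁻¹ * k)⁻¹ = k'⁻¹ * (k * x * k⁻¹) * k' := by group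
      _ = k'⁻¹ * (k' * x * k'⁻¹) * k' := by rw [← h2, h3]
      _ = x := by group
  exact (inv_mul_eq_one.1 h1).symm

theorem Pr.other (F : Fam 𝓒) (hK : K ∈ 𝓒) (hK' : K' ∈ 𝓒) (hne : K ≠ K') (he : e ∈ K') : Pr K e 1 := by
  refine ⟨one_mem _, fun x hx => ?_⟩
  rw [← F.comm K hK K' hK' hne x hx e he]
  group

theorem ext_pr (F : Fam 𝓒) (h : ∀ K ∈ 𝓒, ∃ k, Pr K e k ∧ Pr K e' k) : e = e' := by
  have h1 : e'⁻¹ * e = 1 := by
    refine F.faith _ fun C hC x hx => ?_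
    obtain ⟨k, h1, h2⟩ := h C hC
    calc e'⁻¹ * e * x * (e'⁻¹ * e)⁻¹ = e'⁻¹ * (e * x * e⁻¹) * e' := by group
      _ = e'⁻¹ * (e' * x * e'⁻¹) * e' := by rw [h1.2 x hx, h2.2 x hx]
      _ = x := by group
  exact (inv_mul_eq_one.1 h1).symm

theorem ne_one_of_pr (F : Fam 𝓒) (hK : K ∈ 𝓒) (h : Pr K e k) (hk : k ≠ 1) : e ≠ 1 := by
  rintro rfl
  exact hk (h.unique F hK (Pr.one K))

theorem exists_pr (F : Fam 𝓒) (hK : K ∈ 𝓒) (he : e ∈ sSup 𝓒) : ∃ k, Pr K e k := by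
  have h1 : sSup 𝓒 ≤ PrS K := by
    refine sSup_le fun C hC x hx => ?_
    by_cases h : K = C
    · exact ⟨x, Pr.self (h ▸ hx)⟩
    · exact ⟨1, Pr.other F hK hC h hx⟩
  exact h1 he

/-- elements with given projections -/
theorem exists_mk [Finite G] (F : Fam 𝓒) (R : Subgroup G → Subgroup G) (hR : ∀ K ∈ 𝓒, R K ≤ K)
    (f : Subgroup G → G) (hf : ∀ K ∈ 𝓒, f K ∈ R K) :
    ∃ e ∈ (⨆ K ∈ 𝓒, R K : Subgroup G), ∀ K ∈ 𝓒, Pr K e (f K) := by
  classical
  have key : ∀ T : Set (Subgroup G), T.Finite → T ⊆ 𝓒 → ∃ e ∈ (⨆ K ∈ 𝓒, R K : Subgroup G),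
      ∀ K ∈ 𝓒, Pr K e (if K ∈ T then f K else 1) := by
    intro T hT
    induction T, hT using Set.Finite.induction_on with
    | empty => intro _; exact ⟨1, one_mem _, fun K _ => by simpa using Pr.one K⟩
    | @insert A T ha _ ih =>
      intro hsub
      obtain ⟨e, he, h⟩ := ih ((Set.subset_insert _ _).trans hsub)
      have hA : A ∈ 𝓒 := hsub (Set.mem_insert _ _)
      refine ⟨f A * e, mul_mem ((le_iSup₂ (f := fun K (_ : K ∈ 𝓒) => R K) A hA) (hf A hA)) he, fun K hK => ?_⟩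
      by_cases hKA : K = A
      · subst hKA
        have h1 := (Pr.self (hR K hK (hf K hK))).mul (h K hK)
        rw [if_neg ha, mul_one] at h1
        rw [if_pos (Set.mem_insert _ _)]
        exact h1
      · have h1 := (Pr.other F hK hA hKA (hR A hA (hf A hA))).mul (h K hK)
        rw [one_mul] at h1
        have h2 : (K ∈ insert A T) ↔ K ∈ T := by
          rw [Set.mem_insert_iff]
          exact or_iff_right hKA
        simpa only [h2] using h1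
  obtain ⟨e, he, h⟩ := key 𝓒 (Set.toFinite _) subset_rfl
  exact ⟨e, he, fun K hK => by simpa only [if_pos hK] using h K hK⟩

theorem exists_mk' [Finite G] (F : Fam 𝓒) (f : Subgroup G → G) (hf : ∀ K ∈ 𝓒, f K ∈ K) :
    ∃ e ∈ sSup 𝓒, ∀ K ∈ 𝓒, Pr K e (f K) := by
  obtain ⟨e, he, h⟩ := exists_mk F id (fun _ _ => le_rfl) f hf
  exact ⟨e, by rw [sSup_eq_iSup]; exact he, h⟩

theorem sSup_normal (F : Fam 𝓒) : (sSup 𝓒).Normal := by
  refine ⟨fun n hn g => ?_⟩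
  have h1 : sSup 𝓒 ≤ (sSup 𝓒).comap (MulAut.conj g).toMonoidHom := by
    refine sSup_le fun C hC x hx => ?_
    rw [mem_comap]
    exact (le_sSup (F.conj C hC g)) (conj_mem_cj hx)
  exact h1 hn

/-! ### spreading a subgroup of `K₁` over the orbit -/

/-- the join of the conjugates of `R` under `S` -/
def Sp (S R : Subgroup G) : Subgroup G := ⨆ s : S, cj (s : G) R

variable {S R K₁ : Subgroup G}

theorem cj_le_Sp {s : G} (hs : s ∈ S) : cj s R ≤ Sp S R := le_iSup (fun s : S => cj (s : G) R) ⟨s, hs⟩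

theorem le_Sp : R ≤ Sp S R := by
  have h1 := cj_le_Sp (R := R) (one_mem S)
  rwa [cj_one] at h1

theorem Sp_le {H : Subgroup G} (h : ∀ s ∈ S, cj s R ≤ H) : Sp S R ≤ H := iSup_le fun s => h s s.2

theorem conj_mem_Sp {t u : G} (ht : t ∈ S) (hu : u ∈ Sp S R) : t * u * t⁻¹ ∈ Sp S R := by
  have h1 : Sp S R ≤ (Sp S R).comap (MulAut.conj t).toMonoidHom := by
    refine Sp_le fun s hs x hx => ?_
    rw [mem_comap]
    have h2 := conj_mem_cj (h := t) hx
    rw [← cj_mul] at h2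
    exact cj_le_Sp (mul_mem ht hs) h2
  exact h1 hu

theorem mem_normalizer_of_conj_mem [Finite G] {N : Subgroup G} {g : G} (h : ∀ u ∈ N, g * u * g⁻¹ ∈ N) :
    g ∈ normalizer (N : Set G) := by
  have h1 : cj g N ≤ N := by
    intro y hy
    rw [mem_cj] at hy
    have := h _ hy
    have e1 : g * (g⁻¹ * y * g) * g⁻¹ = y := by group
    rwa [e1] at this
  have h2 : cj g N = N := by
    apply Subgroup.eq_of_le_of_card_ge h1
    unfold cj
    rw [Subgroup.card_map_of_injective (MulAut.conj g).injective]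
  rw [mem_normalizer_iff]
  intro y
  constructor
  · intro hy
    exact h y hy
  · intro hy
    rw [← h2] at hy
    have h3 := mem_cj.1 hy
    have e1 : g⁻¹ * (g * y * g⁻¹) * g = y := by group
    rwa [e1] at h3

theorem le_normalizer_Sp [Finite G] : S ≤ normalizer (Sp S R : Set G) := fun _ ht =>
  mem_normalizer_of_conj_mem fun _ hu => conj_mem_Sp ht hu

/-- the projection of `Sp S R` on `K₁` is `R` -/
theorem Sp_le_PrR (F : Fam 𝓒) (hK : K₁ ∈ 𝓒) (hR : R ≤ K₁) (hRS : ∀ s ∈ S, cj s K₁ = K₁ → cj s R ≤ R) :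
    Sp S R ≤ PrR K₁ R := by
  refine Sp_le fun s hs x hx => ?_
  by_cases h : cj s K₁ = K₁
  · have h1 := hRS s hs h hx
    exact ⟨x, h1, Pr.self (hR h1)⟩
  · refine ⟨1, one_mem _, Pr.other F hK (F.conj K₁ hK s) (Ne.symm h) ?_⟩
    rw [mem_cj] at hx ⊢
    exact hR hx

theorem Sp_inf (F : Fam 𝓒) (hK : K₁ ∈ 𝓒) (hR : R ≤ K₁) (hRS : ∀ s ∈ S, cj s K₁ = K₁ → cj s R ≤ R)
    {u : G} (hu : u ∈ Sp S R) (huK : u ∈ K₁) : u ∈ R := by
  obtain ⟨k, hk, h⟩ := Sp_le_PrR F hK hR hRS hu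
  rw [(Pr.self huK).unique F hK h]
  exact hk

/-- the normaliser of `R` in `K₁` normalises `Sp S R` -/
theorem mem_normalizer_Sp [Finite G] (F : Fam 𝓒) (hK : K₁ ∈ 𝓒) (hR : R ≤ K₁)
    (hRS : ∀ s ∈ S, cj s K₁ = K₁ → cj s R ≤ R) {g : G} (hg : g ∈ K₁) (hgR : ∀ r ∈ R, g * r * g⁻¹ ∈ R) :
    g ∈ normalizer (Sp S R : Set G) := by
  refine mem_normalizer_of_conj_mem fun u hu => ?_
  have h1 : Sp S R ≤ (Sp S R).comap (MulAut.conj g).toMonoidHom := by
    refine Sp_le fun s hs x hx => ?_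
    rw [mem_comap]
    change g * x * g⁻¹ ∈ Sp S R
    by_cases h : cj s K₁ = K₁
    · exact le_Sp (hgR x (hRS s hs h hx))
    · have h2 : x ∈ cj s K₁ := by
        rw [mem_cj] at hx ⊢
        exact hR hx
      rw [F.comm K₁ hK _ (F.conj K₁ hK s) (Ne.symm h) g hg x h2, mul_inv_cancel_right]
      exact cj_le_Sp hs hx
  exact h1 hu

theorem cj_eq_of_mem_normalizer {g : G} {K : Subgroup G} : g ∈ normalizer (K : Set G) ↔ cj g K = K := by
  constructor
  · intro h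
    ext y
    rw [mem_cj]
    have h1 := mem_normalizer_iff.1 h (g⁻¹ * y * g)
    rw [h1]
    have e1 : g * (g⁻¹ * y * g) * g⁻¹ = y := by group
    rw [e1]
  · intro h
    rw [mem_normalizer_iff]
    intro y
    constructor
    · intro hy
      rw [← h]
      exact conj_mem_cj hy
    · intro hy
      rw [← h, mem_cj] at hy
      have e1 : g⁻¹ * (g * y * g⁻¹) * g = y := by group
      rwa [e1] at hy

end

end Cfsg.Agent.H720.Tall
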