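import Cfsg.Agent.H720.Tall.Start
import Cfsg.Agent.H720.Tall.Frame

/-!
# S2927, task FIB: the components are permuted transitively by `Q` (helper720)
-/

set_option autoImplicit false
set_option linter.unusedSectionVars false

namespace Cfsg.Agent.H720.Tall

open Subgroup Cfsg
open Cfsg.Agent.H239.CharPLocal (CP)
open Cfsg.Agent.H226.Tall
open Cfsg.Agent.H369.Socle
open Cfsg.Agent.SignalizersComponents.Components

universe u

section general

variable {G : Type u} [Group G] [Finite G]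

/-- the components -/
def Cm (G : Type u) [Group G] : Set (Subgroup G) := {C | IsComponent C}

theorem fam_of_noSol (hR : NoSol G) : Fam (Cm G) where
  conj C hC h := isComponent_conj h hC
  comm C hC D hD hne x hx y hy := comm_of_ne hC hD hne hx hy
  faith h hh := eq_one_of_centralizes hR hh

/-- maximality of Sylow subgroups of subnormal subgroups -/
theorem sylow_max {S : Sylow 2 G} {N : Subgroup G} (hN : N.IsSubnormal) {T : Subgroup G} (hT : IsPGroup 2 T)
    (hTN : T ≤ N) (h : (S : Subgroup G) ⊓ N ≤ T) : T = (S : Subgroup G) ⊓ N := by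
  have : Fact (Nat.Prime 2) := ⟨Nat.prime_two⟩
  obtain ⟨P, hP⟩ := S0542.result 2 N hN S
  have h1 : (P : Subgroup N) ≤ T.subgroupOf N := by
    rw [hP]
    intro y hy
    exact mem_subgroupOf.2 (h ⟨mem_subgroupOf.1 hy, y.2⟩)
  have h2 := P.is_maximal' (hT.comap_subtype (K := N)) h1
  apply le_antisymm _ h
  intro t ht
  have h3 : (⟨t, hTN ht⟩ : N) ∈ T.comap N.subtype := mem_comap.2 ht
  rw [h2] at h3
  have h4 : (⟨t, hTN ht⟩ : N) ∈ (S : Subgroup G).subgroupOf N := by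
    rw [← hP]; exact h3
  exact ⟨mem_subgroupOf.1 h4, hTN ht⟩

/-- a group without elements of odd order is a 2-group -/
theorem isPGroup_of_odd {H : Type u} [Group H] [Finite H] (h : ∀ w : H, ¬ 2 ∣ orderOf w → w = 1) : IsPGroup 2 H := by
  intro y
  obtain ⟨n, m, hm, hnm⟩ := Nat.exists_eq_pow_mul_and_not_dvd (orderOf_pos y).ne' 2 (by norm_num)
  refine ⟨n, h _ ?_⟩
  rw [orderOf_pow_of_dvd (pow_ne_zero _ two_ne_zero) ⟨m, hnm⟩, hnm,
    Nat.mul_div_cancel_left _ (pow_pos two_pos n)]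
  exact hm

/-- an element of a 2-group of odd order is trivial -/
theorem eq_one_of_odd {T : Subgroup G} (hT : IsPGroup 2 T) {w : G} (hw : w ∈ T) {m : ℕ} (hm : ¬ 2 ∣ m)
    (h : w ^ m = 1) : w = 1 := by
  obtain ⟨n, hn⟩ := hT ⟨w, hw⟩
  have h1 : w ^ 2 ^ n = 1 := congrArg Subtype.val hn
  have h2 := orderOf_dvd_of_pow_eq_one h1
  have h3 := orderOf_dvd_of_pow_eq_one h
  have h4 : Nat.Coprime m (2 ^ n) :=
    Nat.Coprime.pow_right _ ((Nat.Prime.coprime_iff_not_dvd Nat.prime_two).2 hm).symm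
  exact orderOf_eq_one_iff.1 (Nat.eq_one_of_dvd_coprimes h4 h3 h2)

theorem prj_isPGroup {𝓒 : Set (Subgroup G)} (F : Fam 𝓒) {K H : Subgroup G} (hK : K ∈ 𝓒) (hH : IsPGroup 2 H) :
    IsPGroup 2 ↥(prj K H) := by
  rintro ⟨k, e, he, h⟩
  obtain ⟨n, hn⟩ := hH ⟨e, he⟩
  have hn' : e ^ 2 ^ n = 1 := congrArg Subtype.val hn
  refine ⟨n, Subtype.ext ?_⟩
  have h1 := h.pow (2 ^ n)
  rw [hn'] at h1
  exact h1.unique F hK (Pr.one K)

/-- a group of characteristic 2 contains no component of the ambient group -/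
theorem false_of_cp {L K : Subgroup G} (h : CP 2 ↥L) (hK : IsComponent K) (hKL : K ≤ L) : False := by
  have : Fact (Nat.Prime 2) := ⟨Nat.prime_two⟩
  have h1 := isComponent_subgroupOf hKL hK
  have h2 := Lib.GenFitting.component_le_genFitting h1
  rw [H239.CharPLocal.cp_iff_genFitting.2 h] at h2
  have h3 : IsPGroup 2 ↥(K.subgroupOf L) := (Lib.Cores.pCore_isPGroup 2).to_le h2
  have h4 : Group.IsNilpotent ↥(K.subgroupOf L) := h3.isNilpotent
  exact quasisimple_not_isSolvable h1.2 inferInstance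

end general

section Tall

variable {G : Type u} [Group G] [Finite G] {S : Sylow 2 G} {Q M Y : Subgroup G} {x : G}

theorem fam (h : Tall S Q M Y x) : Fam (Cm G) := fam_of_noSol (noSol h)

/-- the layer -/
abbrev EE (G : Type u) [Group G] : Subgroup G := sSup (Cm G)

theorem EE_normal (h : Tall S Q M Y x) : (EE G).Normal := sSup_normal (fam h)

theorem comp_le_EE {K : Subgroup G} (hK : K ∈ Cm G) : K ≤ EE G := le_sSup hK

theorem EE_ne_bot (h : Tall S Q M Y x) : EE G ≠ ⊥ := by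
  intro hE
  have h1 : x = 1 := by
    refine (fam h).faith x fun C hC y hy => ?_
    have h2 : y ∈ EE G := comp_le_EE hC hy
    rw [hE, mem_bot] at h2
    rw [h2]; group
  have h2 := h.x_ord
  rw [h1, orderOf_one] at h2
  norm_num at h2

theorem exists_ci (h : Tall S Q M Y x) : ∃ a ∈ EE G, CI S a := by
  have : Fact (Nat.Prime 2) := ⟨Nat.prime_two⟩
  have hn := EE_normal h
  have h2 : 2 ∣ Nat.card ↥(EE G) := by
    by_contra hcon
    exact EE_ne_bot h (odd_normal h _ hcon)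
  have hne : (S : Subgroup G) ⊓ EE G ≠ ⊥ := by
    intro hb
    obtain ⟨t, ht⟩ := exists_prime_orderOf_dvd_card' (G := ↥(EE G)) 2 h2
    have ht' : orderOf (t : G) = 2 := by rw [Subgroup.orderOf_coe]; exact ht
    have h3 := sylow_max (S := S) hn.isSubnormal (H226.ParRed.isPGroup_zpowers ht')
      ((zpowers_le).2 t.2) (by rw [hb]; exact bot_le)
    rw [hb] at h3
    exact H226.ParRed.zpowers_ne_bot ht' h3
  obtain ⟨a, ha, haS⟩ := exists_CI (S := S) (S.isPGroup'.to_le inf_le_left) hne (by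
    intro s hs d hd
    exact mem_inf.2 ⟨mul_mem (mul_mem hs hd.1) (inv_mem hs), hn.conj_mem d hd.2 s⟩)
  exact ⟨a, ha.2, haS⟩

theorem S_EE_ne_bot (h : Tall S Q M Y x) : (S : Subgroup G) ⊓ EE G ≠ ⊥ := by
  obtain ⟨a, ha, haS⟩ := exists_ci h
  intro hb
  have h1 : a ∈ (S : Subgroup G) ⊓ EE G := mem_inf.2 ⟨haS.mem_S h, ha⟩
  rw [hb, mem_bot] at h1
  exact haS.1 h1

/-- **`Q` permutes the components transitively** -/
theorem trans (h : Tall S Q M Y x) {K₁ K₂ : Subgroup G} (h1 : K₁ ∈ Cm G) (h2 : K₂ ∈ Cm G) :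
    ∃ q ∈ Q, cj q K₁ = K₂ := by
  classical
  have F := fam h
  obtain ⟨a, ha, haS⟩ := exists_ci h
  -- a component on which `a` acts nontrivially
  obtain ⟨K₀, h0, a₀, hp0, ha0⟩ : ∃ K₀ ∈ Cm G, ∃ a₀, Pr K₀ a a₀ ∧ a₀ ≠ 1 := by
    by_contra hcon
    push Not at hcon
    apply haS.1
    refine ext_pr F fun K hK => ?_
    obtain ⟨k, hk⟩ := exists_pr F hK ha
    have h3 := hcon K hK k hk
    rw [h3] at hk
    exact ⟨1, hk, Pr.one K⟩
  have key : ∀ K ∈ Cm G, ∃ q ∈ Q, cj q K₀ = K := by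
    by_contra hcon
    push Not at hcon
    obtain ⟨K', hK', hno⟩ := hcon
    have hex : ∀ K : Subgroup G, ∃ k, (K ∈ Cm G → (∃ q ∈ Q, cj q K₀ = K) → Pr K a k) ∧
        ((¬ ∃ q ∈ Q, cj q K₀ = K) → k = 1) ∧ (K ∈ Cm G → k ∈ K) := by
      intro K
      by_cases hK : K ∈ Cm G
      · by_cases ho : ∃ q ∈ Q, cj q K₀ = K
        · obtain ⟨k, hk⟩ := exists_pr F hK ha
          exact ⟨k, fun _ _ => hk, fun h3 => absurd ho h3, fun _ => hk.1⟩
        · exact ⟨1, fun _ h3 => absurd h3 ho, fun _ => rfl, fun _ => one_mem _⟩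
      · exact ⟨1, fun h3 => absurd h3 hK, fun _ => rfl, fun h3 => absurd h3 hK⟩
    choose f hf1 hf2 hf3 using hex
    obtain ⟨b, hb, hbp⟩ := exists_mk' F f hf3
    have hQS : ∀ q ∈ Q, q * a = a * q := fun q hq => haS.2.2 q (h.Q_le hq)
    -- `b` commutes with `Q`
    have hbQ : ∀ q ∈ Q, q * b = b * q := by
      intro q hq
      have h3 : q * b * q⁻¹ = b := by
        refine ext_pr F fun K hK => ?_
        have hL : cj q⁻¹ K ∈ Cm G := F.conj K hK q⁻¹
        have e1 : cj q (cj q⁻¹ K) = K := by rw [← cj_mul, mul_inv_cancel, cj_one]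
        have h4 := (hbp _ hL).conj q
        rw [e1] at h4
        refine ⟨_, h4, ?_⟩
        by_cases ho : ∃ r ∈ Q, cj r K₀ = K
        · have hoL : ∃ r ∈ Q, cj r K₀ = cj q⁻¹ K := by
            obtain ⟨r, hr, hrK⟩ := ho
            exact ⟨q⁻¹ * r, mul_mem (inv_mem hq) hr, by rw [cj_mul, hrK]⟩
          have h5 := (hf1 _ hL hoL).conj q
          rw [e1, hQS q hq, mul_inv_cancel_right] at h5
          rw [h5.unique F hK (hf1 K hK ho)]
          exact hbp K hK
        · have hoL : ¬ ∃ r ∈ Q, cj r K₀ = cj q⁻¹ K := by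
            rintro ⟨r, hr, hrK⟩
            exact ho ⟨q * r, mul_mem hq hr, by rw [cj_mul, hrK, e1]⟩
          have h5 := hbp K hK
          rw [hf2 K ho] at h5
          rw [hf2 _ hoL, mul_one, mul_inv_cancel]
          exact h5
      rw [mul_inv_eq_iff_eq_mul] at h3
      exact h3
    have hb1 : b ≠ 1 := by
      have h3 := hbp K₀ h0
      rw [(hf1 K₀ h0 ⟨1, one_mem _, cj_one _⟩).unique F h0 hp0] at h3
      exact ne_one_of_pr F h0 h3 ha0
    have hbQm : b ∈ Q := h.Q_cent (mem_centralizer_iff.2 fun q hq => hbQ q hq)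
    have h5 := (h.good b hbQm hb1 hbQ).2
    refine false_of_cp h5 hK' fun y hy => ?_
    rw [mem_centralizer_singleton_iff]
    have h6 := (hbp K' hK').2 y hy
    rw [hf2 K' (fun ⟨q, hq, e⟩ => hno q hq e)] at h6
    have h7 : b * y * b⁻¹ = y := by rw [h6]; group
    rw [mul_inv_eq_iff_eq_mul] at h7
    exact h7.symm
  obtain ⟨q1, hq1, e1⟩ := key K₁ h1
  obtain ⟨q2, hq2, e2⟩ := key K₂ h2
  refine ⟨q2 * q1⁻¹, mul_mem hq2 (inv_mem hq1), ?_⟩
  rw [← e1, ← e2, ← cj_mul]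
  congr 1
  group

/-- a single component: `F*(G)` is simple -/
theorem one_of_unique (h : Tall S Q M Y x) {K : Subgroup G} (hK : K ∈ Cm G) (hu : ∀ K' ∈ Cm G, K' = K) :
    One S Q M Y x K where
  toTall := h
  nK := ⟨fun n hn g => by
    have h1 := (fam h).conj K hK g
    have h2 := conj_mem_cj (h := g) hn
    rwa [hu _ h1] at h2⟩
  simple := isSimple (noSol h) hK
  nonab := by
    have h1 := not_comm hK
    push Not at h1
    exact h1
  cent := by
    rw [eq_bot_iff]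
    intro y hy
    rw [mem_bot]
    refine (fam h).faith y fun C hC z hz => ?_
    rw [hu C hC] at hz
    rw [← mem_centralizer_iff.1 hy z hz, mul_inv_cancel_right]

/-- an element of `E` with given equivariant projections -/
theorem exists_fix_elt (h : Tall S Q M Y x) {K₁ : Subgroup G} (h1 : K₁ ∈ Cm G) {a₁ : G} (ha : a₁ ∈ K₁)
    (ha1 : a₁ ≠ 1) (ha2 : a₁ * a₁ = 1) (hfix : ∀ s ∈ (S : Subgroup G), cj s K₁ = K₁ → s * a₁ * s⁻¹ = a₁) :
    ∃ a ∈ EE G, CI S a ∧ Pr K₁ a a₁ := by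
  have F := fam h
  have hex : ∀ K : Subgroup G, ∃ k, (K ∈ Cm G → k ∈ K) ∧
      (K ∈ Cm G → ∀ s ∈ (S : Subgroup G), cj s K₁ = K → k = s * a₁ * s⁻¹) := by
    intro K
    by_cases hK : K ∈ Cm G
    · obtain ⟨q, hq, e⟩ := trans h h1 hK
      refine ⟨q * a₁ * q⁻¹, fun _ => e ▸ conj_mem_cj ha, fun _ s hs es => ?_⟩
      have h3 := hfix (q⁻¹ * s) (mul_mem (inv_mem (h.Q_le hq)) hs) (by
        rw [cj_mul, es, ← e, ← cj_mul, inv_mul_cancel, cj_one])
      calc q * a₁ * q⁻¹ = q * (q⁻¹ * s * a₁ * (q⁻¹ * s)⁻¹) * q⁻¹ := by rw [h3]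
        _ = s * a₁ * s⁻¹ := by group
    · exact ⟨1, fun h3 => absurd h3 hK, fun h3 => absurd h3 hK⟩
  choose f hf1 hf2 using hex
  obtain ⟨a, haE, hap⟩ := exists_mk' F f hf1
  have hp1 : Pr K₁ a a₁ := by
    have h3 := hap K₁ h1
    rw [hf2 K₁ h1 1 (one_mem _) (cj_one _)] at h3
    simpa using h3
  refine ⟨a, haE, ⟨ne_one_of_pr F h1 hp1 ha1, ?_, fun t ht => ?_⟩, hp1⟩
  · refine ext_pr F fun K hK => ⟨1, ?_, Pr.one K⟩
    obtain ⟨q, hq, e⟩ := trans h h1 hK
    have h3 := (hap K hK).mul (hap K hK)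
    have h4 : f K * f K = 1 := by
      rw [hf2 K hK q (h.Q_le hq) e]
      calc q * a₁ * q⁻¹ * (q * a₁ * q⁻¹) = q * (a₁ * a₁) * q⁻¹ := by group
        _ = 1 := by rw [ha2]; group
    rwa [h4] at h3
  · have h3 : t * a * t⁻¹ = a := by
      refine ext_pr F fun K hK => ?_
      have hL : cj t⁻¹ K ∈ Cm G := F.conj K hK t⁻¹
      have e1 : cj t (cj t⁻¹ K) = K := by rw [← cj_mul, mul_inv_cancel, cj_one]
      have h4 := (hap _ hL).conj t
      rw [e1] at h4
      obtain ⟨q, hq, e⟩ := trans h h1 hL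
      refine ⟨_, h4, ?_⟩
      have h5 := hap K hK
      rw [hf2 K hK (t * q) (mul_mem ht (h.Q_le hq)) (by rw [cj_mul, e, e1])] at h5
      rw [hf2 _ hL q (h.Q_le hq) e]
      have e2 : t * (q * a₁ * q⁻¹) * t⁻¹ = t * q * a₁ * (t * q)⁻¹ := by group
      rw [e2]
      exact h5
    rw [mul_inv_eq_iff_eq_mul] at h3
    exact h3

/-- **the centralizer of an invariant involution** -/
theorem fix_odd (h : Tall S Q M Y x) {K₁ K₂ : Subgroup G} (h1 : K₁ ∈ Cm G) (h2 : K₂ ∈ Cm G) (hne : K₁ ≠ K₂)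
    {a₁ : G} (ha : a₁ ∈ K₁) (ha1 : a₁ ≠ 1) (ha2 : a₁ * a₁ = 1)
    (hfix : ∀ s ∈ (S : Subgroup G), cj s K₁ = K₁ → s * a₁ * s⁻¹ = a₁) {w : G} (hw : w ∈ K₁)
    (hwa : w * a₁ = a₁ * w) (hwo : ¬ 2 ∣ orderOf w) : w = 1 := by
  have F := fam h
  obtain ⟨a, haE, haS, hap⟩ := exists_fix_elt h h1 ha ha1 ha2 hfix
  have hwN : w ∈ normalizer (Q : Set G) := by
    apply (haS.good h).1
    rw [mem_centralizer_singleton_iff]
    have h3 := hap.2 w hw
    rw [← hwa, mul_inv_cancel_right, mul_inv_eq_iff_eq_mul] at h3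
    exact h3.symm
  obtain ⟨q, hq, e⟩ := trans h h1 h2
  have hqw : q * w * q⁻¹ ∈ K₂ := e ▸ conj_mem_cj hw
  have hcom : Commute w⁻¹ (q * w * q⁻¹) := F.comm K₁ h1 K₂ h2 hne _ (inv_mem hw) _ hqw
  have hu : w⁻¹ * (q * w * q⁻¹) ∈ Q := by
    have h3 : w⁻¹ * q * w ∈ Q := by
      have := (mem_normalizer_iff.1 (inv_mem hwN) q).1 hq
      rwa [inv_inv] at this
    have h4 : w⁻¹ * (q * w * q⁻¹) = w⁻¹ * q * w * q⁻¹ := by group
    rw [h4]
    exact mul_mem h3 (inv_mem hq)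
  have h5 : w⁻¹ * (q * w * q⁻¹) = 1 := by
    refine eq_one_of_odd (S.isPGroup'.to_le h.Q_le) hu hwo ?_
    rw [hcom.mul_pow, inv_pow, pow_orderOf_eq_one]
    have h6 : (q * w * q⁻¹) ^ orderOf w = q * w ^ orderOf w * q⁻¹ := conj_pow
    rw [h6, pow_orderOf_eq_one]
    group
  have h6 : w = q * w * q⁻¹ := inv_mul_eq_one.1 h5
  refine center_eq_one F h1 hw fun y hy => ?_
  rw [← F.comm K₁ h1 K₂ h2 hne y hy w (h6 ▸ hqw), mul_inv_cancel_right]

/-- the centralizer of an involution of `Z(S) ∩ E` in `E` -/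
theorem cent_le_S (h : Tall S Q M Y x) {K₁ K₂ : Subgroup G} (h1 : K₁ ∈ Cm G) (h2 : K₂ ∈ Cm G) (hne : K₁ ≠ K₂)
    {a : G} (ha : a ∈ EE G) (haS : CI S a) {c : G} (hc : c ∈ EE G) (hca : c * a = a * c) :
    c ∈ (S : Subgroup G) := by
  have F := fam h
  have hn := EE_normal h
  -- every component is different from another one
  have hoth : ∀ K ∈ Cm G, ∃ K' ∈ Cm G, K ≠ K' := by
    intro K hK
    by_cases e : K = K₁
    · exact ⟨K₂, h2, e ▸ hne⟩
    · exact ⟨K₁, h1, e⟩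
  -- the projections of `a`
  have hproj : ∀ K ∈ Cm G, ∀ k, Pr K a k → k ≠ 1 ∧ k * k = 1 ∧
      ∀ s ∈ (S : Subgroup G), cj s K = K → s * k * s⁻¹ = k := by
    intro K hK k hk
    refine ⟨?_, ?_, fun s hs e => ?_⟩
    · rintro rfl
      apply haS.1
      refine ext_pr F fun L hL => ⟨1, ?_, Pr.one L⟩
      obtain ⟨q, hq, e⟩ := trans h hK hL
      have h3 := hk.conj q
      rw [e, haS.2.2 q (h.Q_le hq)] at h3
      simpa using h3
    · have h3 := hk.mul hk
      rw [haS.2.1] at h3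
      exact h3.unique F hK (Pr.one K)
    · have h3 := hk.conj s
      rw [e, haS.2.2 s hs, mul_inv_cancel_right] at h3
      exact h3.unique F hK hk
  -- `C_E(a)` has no elements of odd order
  have hodd : ∀ w ∈ EE G, w * a = a * w → ¬ 2 ∣ orderOf w → w = 1 := by
    intro w hw hwa hwo
    refine ext_pr F fun K hK => ⟨1, ?_, Pr.one K⟩
    obtain ⟨k, hk⟩ := exists_pr F hK ha
    obtain ⟨v, hv⟩ := exists_pr F hK hw
    obtain ⟨hk1, hk2, hk3⟩ := hproj K hK k hk
    obtain ⟨K', hK', hne'⟩ := hoth K hK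
    have h3 : v * k = k * v := by
      have h4 := hv.mul hk
      rw [hwa] at h4
      exact h4.unique F hK (hk.mul hv)
    have h5 : ¬ 2 ∣ orderOf v := by
      intro h6
      apply hwo
      refine h6.trans (orderOf_dvd_of_pow_eq_one ?_)
      have h7 := hv.pow (orderOf w)
      rw [pow_orderOf_eq_one] at h7
      exact h7.unique F hK (Pr.one K)
    have h6 := fix_odd h hK hK' hne' hk.1 hk1 hk2 hk3 hv.1 h3 h5
    rw [h6] at hv
    exact hv
  have hP : IsPGroup 2 ↥(EE G ⊓ centralizer ({a} : Set G)) := by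
    refine isPGroup_of_odd fun w hw => ?_
    apply Subtype.ext
    refine hodd w w.2.1 (mem_centralizer_singleton_iff.1 w.2.2) ?_
    rwa [Subgroup.orderOf_coe]
  have h3 := sylow_max (S := S) hn.isSubnormal hP inf_le_left (by
    intro s hs
    refine mem_inf.2 ⟨hs.2, ?_⟩
    rw [mem_centralizer_singleton_iff]
    exact haS.2.2 s hs.1)
  have h4 : c ∈ EE G ⊓ centralizer ({a} : Set G) := mem_inf.2 ⟨hc, mem_centralizer_singleton_iff.2 hca⟩
  rw [h3] at h4
  exact h4.1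

end Tall

end Cfsg.Agent.H720.Tall
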