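import Cfsg.Agent.H720.Tall.Act

/-!
# S2927, task FIB: `exists_fib` (helper720)
-/

set_option autoImplicit false
set_option linter.unusedSectionVars false

namespace Cfsg.Agent.H720.Tall

open Subgroup Cfsg
open Cfsg.Agent.H239.CharPLocal (CP)
open Cfsg.Agent.H226.Tall
open Cfsg.Agent.H369.Socle
open Cfsg.Agent.SignalizersComponents.Components

universe u

section Tall

variable {G : Type u} [Group G]

/-- the image of `N_H(K)` in `Aut K` -/
def im (H K : Subgroup G) : Subgroup (MulAut K) := (H.subgroupOf (normalizer (K : Set G))).map K.normalizerMonoidHom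

theorem mem_im {H K : Subgroup G} {α : MulAut K} (h : α ∈ im H K) :
    ∃ s ∈ H, cj s K = K ∧ ∀ k : K, ((α k : K) : G) = s * k * s⁻¹ := by
  obtain ⟨s, hs, rfl⟩ := h
  exact ⟨s, hs, cj_eq_of_mem_normalizer.1 s.2, fun k => rfl⟩

theorem exists_im {H K : Subgroup G} {s : G} (hs : s ∈ H) (e : cj s K = K) :
    ∃ α ∈ im H K, ∀ k : K, ((α k : K) : G) = s * k * s⁻¹ :=
  ⟨_, ⟨⟨s, cj_eq_of_mem_normalizer.2 e⟩, hs, rfl⟩, fun _ => rfl⟩

/-- conjugation with an element of `N(K)` -/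
theorem exists_aut {K : Subgroup G} {s : G} (e : cj s K = K) :
    ∃ α : MulAut K, ∀ k : K, ((α k : K) : G) = s * k * s⁻¹ :=
  ⟨K.normalizerMonoidHom ⟨s, cj_eq_of_mem_normalizer.2 e⟩, fun _ => rfl⟩

theorem map_cj {K : Subgroup G} {s : G} {α : MulAut K} (hα : ∀ k : K, ((α k : K) : G) = s * k * s⁻¹)
    (X : Subgroup K) : (X.map α.toMonoidHom).map K.subtype = cj s (X.map K.subtype) := by
  ext u
  constructor
  · rintro ⟨_, ⟨v, hv, rfl⟩, rfl⟩
    change ((α v : K) : G) ∈ _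
    rw [hα]
    exact conj_mem_cj ⟨v, hv, rfl⟩
  · intro hu
    rw [mem_cj] at hu
    obtain ⟨v, hv, hvu⟩ := hu
    refine ⟨α v, ⟨v, hv, rfl⟩, ?_⟩
    change ((α v : K) : G) = u
    rw [hα]
    change (v : G) = _ at hvu
    rw [hvu]
    group

theorem O2_map [Finite G] {K : Subgroup G} (X : Subgroup K) : (O2 X).map K.subtype ≤ O2 (X.map K.subtype) := by
  refine le_O2 ((O2_isPGroup X).map _) (Subgroup.map_mono (O2_le X)) ?_
  rintro _ ⟨g, hg, rfl⟩ _ ⟨u, hu, rfl⟩
  exact ⟨g * u * g⁻¹, conj_mem_O2 hg hu, rfl⟩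

variable [Finite G] {S : Sylow 2 G} {Q M Y : Subgroup G} {x : G}

/-- **at least two components** -/
theorem fib_of_two (h : Tall S Q M Y x) {K₁ K₂ : Subgroup G} (h1 : K₁ ∈ Cm G) (h2 : K₂ ∈ Cm G) (hne : K₁ ≠ K₂)
    {S₁ : Sylow 2 ↥K₁} (hS₁ : (S₁ : Subgroup ↥K₁) = (S : Subgroup G).subgroupOf K₁) :
    Fib S₁ (im (S : Subgroup G) K₁) (im Y K₁) := by
  have F := fam h
  have hmS : ∀ s : K₁, s ∈ (S₁ : Subgroup ↥K₁) ↔ (s : G) ∈ (S : Subgroup G) := by
    intro s
    rw [hS₁, mem_subgroupOf]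
  -- an invariant subgroup of `S₁` comes from an invariant subgroup of `S`
  have hinv : ∀ R : Subgroup ↥K₁, (∀ α ∈ im (S : Subgroup G) K₁, ∀ r ∈ R, α r ∈ R) →
      ∀ s ∈ (S : Subgroup G), cj s K₁ = K₁ → cj s (R.map K₁.subtype) ≤ R.map K₁.subtype := by
    intro R hR s hs e
    obtain ⟨α, hα, hα'⟩ := exists_im hs e
    rw [← map_cj hα']
    refine Subgroup.map_mono ?_
    rintro _ ⟨v, hv, rfl⟩
    exact hR α hα v hv
  refine
    { P_two := (S.isPGroup'.comap_subtype (K := normalizer (K₁ : Set G))).map _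
      conj_mem := ?_, P_norm := ?_, loc := ?_, V_le := ?_, V_loc := ?_, fix := ?_, act := ?_ }
  · intro s hs
    have e : cj (s : G) K₁ = K₁ := cj_eq_of_mem_normalizer.1 (le_normalizer s.2)
    obtain ⟨α, hα, hα'⟩ := exists_im ((hmS s).1 hs) e
    have h3 : MulAut.conj s = α := by
      ext k
      rw [hα']
      rfl
    rwa [h3]
  · intro α hα s hs
    obtain ⟨t, ht, -, hα'⟩ := mem_im hα
    rw [hmS, hα']
    exact mul_mem (mul_mem ht ((hmS s).1 hs)) (inv_mem ht)
  · obtain ⟨R, hR1, hR2, hR3, hR4⟩ := loc_K h h1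
    have hRK : R ≤ K₁ := hR2.trans inf_le_right
    refine ⟨R.subgroupOf K₁, ?_, ?_, ?_, ?_⟩
    · intro hb
      rw [subgroupOf_eq_bot] at hb
      apply hR1
      rw [eq_bot_iff]
      intro r hr
      have := (disjoint_iff.1 hb) ▸ mem_inf.2 ⟨hr, hRK hr⟩
      exact this
    · intro r hr
      rw [hmS]
      exact (hR2 (mem_subgroupOf.1 hr)).1
    · intro α hα r hr
      obtain ⟨t, ht, e, hα'⟩ := mem_im hα
      rw [mem_subgroupOf] at hr ⊢
      rw [hα']
      exact hR3 t ht e (conj_mem_cj hr)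
    · intro hcon
      apply hR4
      intro k hk hkR s hs
      have h3 : (⟨k, hk⟩ : K₁) ∈ normalizer ((R.subgroupOf K₁ : Subgroup K₁) : Set K₁) := by
        refine mem_normalizer_of_conj_mem fun r hr => ?_
        rw [mem_subgroupOf] at hr ⊢
        exact hkR _ hr
      have h4 := hcon h3
      have h5 := (mem_normalizer_iff.1 h4 ⟨s, hs.2⟩).1 ((hmS _).2 hs.1)
      exact mem_inf.2 ⟨(hmS _).1 h5, mul_mem (mul_mem hk hs.2) (inv_mem hk)⟩
  · exact Subgroup.map_mono (Subgroup.comap_mono (Y_le_S h))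
  · intro R hR1 hR2 hR3 α hα k hk
    obtain ⟨y, hy, e, hα'⟩ := mem_im hα
    have hne1 : R.map K₁.subtype ≠ ⊥ := by
      rw [Ne, Subgroup.map_eq_bot_iff_of_injective _ K₁.subtype_injective]
      exact hR1
    have hle : R.map K₁.subtype ≤ (S : Subgroup G) ⊓ K₁ := by
      rintro _ ⟨r, hr, rfl⟩
      exact mem_inf.2 ⟨(hmS r).1 (hR2 hr), r.2⟩
    obtain ⟨N, hN1, hN2, hN3, hN4⟩ := Y_loc_K h h1 hne1 hle (hinv R hR3)
    have hnR : ∀ k ∈ normalizer (R : Set K₁), ∀ r ∈ R.map K₁.subtype, (k : G) * r * (k : G)⁻¹ ∈ R.map K₁.subtype := by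
      rintro k hk _ ⟨r, hr, rfl⟩
      exact ⟨k * r * k⁻¹, (mem_normalizer_iff.1 hk r).1 hr, rfl⟩
    have h3 : N.subgroupOf K₁ ≤ O2 (normalizer (R : Set K₁)) := by
      refine le_O2 (hN1.comap_subtype (K := K₁)) ?_ ?_
      · intro u hu
        refine mem_normalizer_of_conj_mem fun r hr => ?_
        have h4 := hN2 u (mem_inf.2 ⟨mem_subgroupOf.1 hu, u.2⟩) r ⟨r, hr, rfl⟩
        obtain ⟨r', hr', e'⟩ := h4
        have h5 : r' = u * r * u⁻¹ := Subtype.ext e'
        rwa [← h5]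
      · intro g hg u hu
        rw [mem_subgroupOf] at hu ⊢
        exact hN3 g g.2 (hnR g hg) _ hu
    apply h3
    rw [mem_subgroupOf]
    have h4 := hN4 k k.2 (hnR k hk) y hy
    have e1 : ((k⁻¹ * α k : K₁) : G) = (k : G)⁻¹ * (y * k * y⁻¹) := by
      rw [Subgroup.coe_mul, hα']
      rfl
    rw [e1]
    exact h4
  · intro a ha ha2 hfix
    refine isPGroup_of_odd fun w hw => ?_
    have ha1 : (a : G) ≠ 1 := by
      intro e
      have : a = 1 := Subtype.ext e
      rw [this, orderOf_one] at ha2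
      norm_num at ha2
    have haa : (a : G) * a = 1 := by
      have h3 := pow_orderOf_eq_one a
      rw [ha2, pow_two] at h3
      exact congrArg Subtype.val h3
    apply Subtype.ext
    apply Subtype.ext
    refine fix_odd h h1 h2 hne (a₁ := (a : G)) a.2 ha1 haa ?_ (w := ((w : K₁) : G)) (w : K₁).2 ?_ ?_
    · intro s hs e
      obtain ⟨α, hα, hα'⟩ := exists_im hs e
      have h3 := hfix α hα
      have h4 := hα' a
      rw [h3] at h4
      exact h4.symm
    · have h3 := mem_centralizer_singleton_iff.1 w.2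
      exact congrArg Subtype.val h3
    · rw [Subgroup.orderOf_coe, Subgroup.orderOf_coe]
      exact hw
  · intro X₁ X₂ hX hX1 hX2 hXX hO1 hO2 hP hN
    by_contra hcon
    push Not at hcon
    have hinj : Function.Injective (Subgroup.map K₁.subtype) := Subgroup.map_injective K₁.subtype_injective
    refine act_false h h1 h2 hne (X₁ := X₁.map K₁.subtype) (X₂ := X₂.map K₁.subtype) ?_ (map_subtype_le _)
      (map_subtype_le _) ?_ (fun e => hX (hinj e)) ?_ ?_ ?_ ?_
    · intro y hy s hs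
      have e := Y_norm h h1 h2 hne hy
      obtain ⟨α, hα, hα'⟩ := exists_im hy e
      have h3 := hcon α hα ⟨s, hs.2⟩ ((hmS _).2 hs.1)
      have h4 := hα' ⟨s, hs.2⟩
      rw [h3] at h4
      exact h4.symm
    · rw [← Subgroup.map_sup, hXX, ← MonoidHom.range_eq_map, Subgroup.range_subtype]
    · intro hb
      have h3 := O2_map X₁
      rw [hb, le_bot_iff, Subgroup.map_eq_bot_iff_of_injective _ K₁.subtype_injective] at h3
      exact hO1 h3
    · intro hb
      have h3 := O2_map X₂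
      rw [hb, le_bot_iff, Subgroup.map_eq_bot_iff_of_injective _ K₁.subtype_injective] at h3
      exact hO2 h3
    · intro s hs e
      obtain ⟨α, hα, hα'⟩ := exists_im hs e
      rw [← map_cj hα', ← map_cj hα', (hP α hα).1, (hP α hα).2]
      exact ⟨rfl, rfl⟩
    · intro m e hm
      obtain ⟨α, hα'⟩ := exists_aut e
      have h3 := hN α (by
        intro s hs
        rw [hmS, hα']
        exact (hm s (mem_inf.2 ⟨(hmS s).1 hs, s.2⟩)).1)
      rw [← map_cj hα', ← map_cj hα']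
      rcases h3 with h3 | h3
      · left
        rw [h3.1, h3.2]
        exact ⟨rfl, rfl⟩
      · right
        rw [h3.1, h3.2]
        exact ⟨rfl, rfl⟩

/-- **The reduction of S2927 to simple groups.** -/
theorem exists_fib {G : Type u} [Group G] [Finite G] {S : Sylow 2 G} {Q M Y : Subgroup G} {x : G}
    (h : Tall S Q M Y x) : (∃ K : Subgroup G, One S Q M Y x K) ∨
      ∃ (K : Type u) (_ : Group K) (_ : Finite K) (_ : IsSimpleGroup K), (∃ a b : K, a * b ≠ b * a) ∧
        ∃ (S₁ : Sylow 2 K) (P V : Subgroup (MulAut K)), Fib S₁ P V := by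
  have : Fact (Nat.Prime 2) := ⟨Nat.prime_two⟩
  have hex : ∃ K, K ∈ Cm G := by
    by_contra hcon
    push Not at hcon
    apply EE_ne_bot h
    have h3 : Cm G = ∅ := Set.eq_empty_iff_forall_notMem.2 hcon
    change sSup (Cm G) = ⊥
    rw [h3, sSup_empty]
  obtain ⟨K₁, h1⟩ := hex
  by_cases hu : ∀ K' ∈ Cm G, K' = K₁
  · exact Or.inl ⟨K₁, one_of_unique h h1 hu⟩
  · right
    push Not at hu
    obtain ⟨K₂, h2, hne⟩ := hu
    obtain ⟨S₁, hS₁⟩ := S0542.result 2 K₁ (subn h1) S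
    refine ⟨↥K₁, inferInstance, inferInstance, isSimple (noSol h) h1, ?_, S₁, _, _,
      fib_of_two h h1 h2 hne.symm hS₁⟩
    have h3 := not_comm h1
    push Not at h3
    exact h3

end Tall

end Cfsg.Agent.H720.Tall
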