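import Cfsg.Agent.H720.Tall.Comps

/-!
# S2927, task FIB: `Y` normalises the components (helper720)
-/

set_option autoImplicit false
set_option linter.unusedSectionVars false

namespace Cfsg.Agent.H720.Tall

open Subgroup Cfsg
open Cfsg.Agent.H239.CharPLocal (CP)
open Cfsg.Agent.H226.Tall
open Cfsg.Agent.H369.Socle
open Cfsg.Agent.SignalizersComponents.Components

universe u

section Tall

variable {G : Type u} [Group G] [Finite G] {S : Sylow 2 G} {Q M Y : Subgroup G} {x : G}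

theorem subn {K : Subgroup G} (hK : K ∈ Cm G) : K.IsSubnormal := hK.1

/-- the projection of `S ∩ E` on `K` is `S ∩ K` -/
theorem prj_S (h : Tall S Q M Y x) {K : Subgroup G} (hK : K ∈ Cm G) :
    prj K ((S : Subgroup G) ⊓ EE G) = (S : Subgroup G) ⊓ K := by
  refine sylow_max (S := S) (subn hK) (prj_isPGroup (fam h) hK (S.isPGroup'.to_le inf_le_left)) (prj_le _ _) ?_
  intro s hs
  exact inf_le_prj _ _ (mem_inf.2 ⟨hs.2, mem_inf.2 ⟨hs.1, comp_le_EE hK hs.2⟩⟩)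

theorem pr_mem_S (h : Tall S Q M Y x) {K : Subgroup G} (hK : K ∈ Cm G) {s k : G} (hs : s ∈ (S : Subgroup G))
    (hE : s ∈ EE G) (hp : Pr K s k) : k ∈ (S : Subgroup G) := by
  have h1 : k ∈ prj K ((S : Subgroup G) ⊓ EE G) := ⟨s, mem_inf.2 ⟨hs, hE⟩, hp⟩
  rw [prj_S h hK] at h1
  exact h1.1

/-- an element of `E` with projections in `S` is in `S` -/
theorem mem_S_of_pr (h : Tall S Q M Y x) {e : G} 
    (hp : ∀ K ∈ Cm G, ∃ k ∈ (S : Subgroup G), Pr K e k) : e ∈ (S : Subgroup G) := by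
  have F := fam h
  have hex : ∀ K : Subgroup G, ∃ k, (K ∈ Cm G → k ∈ (S : Subgroup G) ⊓ K ∧ Pr K e k) := by
    intro K
    by_cases hK : K ∈ Cm G
    · obtain ⟨k, hk, hk'⟩ := hp K hK
      exact ⟨k, fun _ => ⟨mem_inf.2 ⟨hk, hk'.1⟩, hk'⟩⟩
    · exact ⟨1, fun h3 => absurd h3 hK⟩
  choose f hf using hex
  obtain ⟨e', he', h'⟩ := exists_mk F (fun K => (S : Subgroup G) ⊓ K) (fun _ _ => inf_le_right) f
    (fun K hK => (hf K hK).1)
  have h2 : e = e' := ext_pr F fun K hK => ⟨f K, (hf K hK).2, h' K hK⟩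
  rw [h2]
  have h3 : (⨆ K ∈ Cm G, (S : Subgroup G) ⊓ K : Subgroup G) ≤ (S : Subgroup G) :=
    iSup₂_le fun _ _ => inf_le_left
  exact h3 he'

theorem M_norm_Y (h : Tall S Q M Y x) {m y : G} (hm : m ∈ M) (hy : y ∈ Y) : m * y * m⁻¹ ∈ Y := by
  rw [h.Y_iff] at hy ⊢
  obtain ⟨h1, h2, h3⟩ := hy
  refine ⟨conj_mem_O2 hm h1, ?_, fun t ht => ?_⟩
  · calc m * y * m⁻¹ * (m * y * m⁻¹) = m * (y * y) * m⁻¹ := by group
      _ = 1 := by rw [h2]; group
  · have h4 := conj_mem_O2 (inv_mem hm) ht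
    rw [inv_inv] at h4
    have h5 := h3 _ h4
    calc t * (m * y * m⁻¹) = m * ((m⁻¹ * t * m) * y) * m⁻¹ := by group
      _ = m * (y * (m⁻¹ * t * m)) * m⁻¹ := by rw [h5]
      _ = m * y * m⁻¹ * t := by group

theorem Y_sq (h : Tall S Q M Y x) {y : G} (hy : y ∈ Y) : y * y = 1 := ((h.Y_iff y).1 hy).2.1

theorem Y_le_S (h : Tall S Q M Y x) : Y ≤ (S : Subgroup G) := fun y hy =>
  O2_le_sylow h.S_le_M ((h.Y_iff y).1 hy).1

theorem cj_inf_S {s : G} (hs : s ∈ (S : Subgroup G)) {K : Subgroup G} {u : G} (hu : u ∈ (S : Subgroup G) ⊓ cj s K) :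
    s⁻¹ * u * s ∈ (S : Subgroup G) ⊓ K :=
  mem_inf.2 ⟨mul_mem (mul_mem (inv_mem hs) hu.1) hs, mem_cj.1 hu.2⟩

/-- `E ∩ N` for a normal subgroup -/
theorem isTwoLocal_S_EE (h : Tall S Q M Y x) : IsTwoLocal (normalizer (((S : Subgroup G) ⊓ EE G : Subgroup G) : Set G)) :=
  ⟨_, S.isPGroup'.to_le inf_le_left, S_EE_ne_bot h, rfl⟩

/-- there is a maximal 2-local subgroup over `S` that does not normalise `S ∩ E` -/
theorem exists_local (h : Tall S Q M Y x) : ∃ L : Subgroup G, IsMaximalTwoLocal L ∧ (S : Subgroup G) ≤ L ∧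
    ¬ L ≤ normalizer (((S : Subgroup G) ⊓ EE G : Subgroup G) : Set G) := by
  obtain ⟨M₁, M₂, hne, h1, h2, h3, h4⟩ := h.two
  by_contra hcon
  push Not at hcon
  have e1 := h1.2 _ (isTwoLocal_S_EE h) (hcon M₁ h1 h3)
  have e2 := h2.2 _ (isTwoLocal_S_EE h) (hcon M₂ h2 h4)
  exact hne (e1.symm.trans e2)

/-- `S ∩ E` is not elementary abelian -/
theorem not_sq (h : Tall S Q M Y x) {K₁ K₂ : Subgroup G} (h1 : K₁ ∈ Cm G) (h2 : K₂ ∈ Cm G) (hne : K₁ ≠ K₂)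
    (hsq : ∀ s ∈ (S : Subgroup G), s ∈ EE G → s * s = 1) : False := by
  obtain ⟨L, hL, hSL, hno⟩ := exists_local h
  apply hno
  have hn := EE_normal h
  obtain ⟨b, hb, hbS⟩ := exists_ci h
  have hO := O2_ne_bot_of_local hL.1
  have hbO := mem_centralizer_O2 h hSL hO hbS
  have hab : ∀ u v : G, u ∈ (S : Subgroup G) → u ∈ EE G → v ∈ (S : Subgroup G) → v ∈ EE G → u * v = v * u := by
    intro u v hu hu' hv hv'
    have e1 := hsq u hu hu'
    have e2 := hsq v hv hv'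
    have e3 := hsq (u * v) (mul_mem hu hv) (mul_mem hu' hv')
    have e4 : u⁻¹ = u := inv_eq_of_mul_eq_one_left e1
    have e5 : v⁻¹ = v := inv_eq_of_mul_eq_one_left e2
    have e6 : (u * v)⁻¹ = u * v := inv_eq_of_mul_eq_one_left e3
    rw [mul_inv_rev, e4, e5] at e6
    exact e6.symm
  intro g hg
  refine mem_normalizer_of_conj_mem fun s hs => ?_
  have hsE : g * s * g⁻¹ ∈ EE G := hn.conj_mem s hs.2 g
  refine mem_inf.2 ⟨cent_le_S h h1 h2 hne hb hbS hsE ?_, hsE⟩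
  have hb' : g⁻¹ * b * g ∈ O2 L := by
    have := conj_mem_O2 (inv_mem hg) hbO
    rwa [inv_inv] at this
  have hb'' : g⁻¹ * b * g ∈ EE G := by
    have := hn.conj_mem b hb g⁻¹
    rwa [inv_inv] at this
  have h5 := hab s _ hs.1 hs.2 (O2_le_sylow hSL hb') hb''
  calc g * s * g⁻¹ * b = g * (s * (g⁻¹ * b * g)) * g⁻¹ := by group
    _ = g * ((g⁻¹ * b * g) * s) * g⁻¹ := by rw [h5]
    _ = b * (g * s * g⁻¹) := by group

/-- **`Y` normalises the components** -/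
theorem Y_norm (h : Tall S Q M Y x) {K₁ K₂ : Subgroup G} (h1 : K₁ ∈ Cm G) (h2 : K₂ ∈ Cm G) (hne : K₁ ≠ K₂)
    {y : G} (hy : y ∈ Y) : cj y K₁ = K₁ := by
  have F := fam h
  by_contra hcon
  have key : ∀ s ∈ (S : Subgroup G), s ∈ K₁ → s * s = 1 := by
    intro s hs hsK
    have hu : s⁻¹ * (y * s * y⁻¹) ∈ Y := by
      have h3 := M_norm_Y h (inv_mem (h.S_le_M hs)) hy
      rw [inv_inv] at h3
      have h4 := mul_mem h3 (inv_mem hy)
      have e1 : s⁻¹ * (y * s * y⁻¹) = s⁻¹ * y * s * y⁻¹ := by group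
      rwa [e1]
    have hys : y * s * y⁻¹ ∈ cj y K₁ := conj_mem_cj hsK
    have hcom := F.comm K₁ h1 _ (F.conj K₁ h1 y) (Ne.symm hcon) _ (inv_mem hsK) _ hys
    have h3 := Y_sq h hu
    have h4 : y * (s * s) * y⁻¹ = s * s := by
      have e1 : s⁻¹ * (y * s * y⁻¹) * (s⁻¹ * (y * s * y⁻¹)) = s⁻¹ * s⁻¹ * (y * (s * s) * y⁻¹) := by
        calc s⁻¹ * (y * s * y⁻¹) * (s⁻¹ * (y * s * y⁻¹))
            = s⁻¹ * ((y * s * y⁻¹) * s⁻¹) * (y * s * y⁻¹) := by group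
          _ = s⁻¹ * (s⁻¹ * (y * s * y⁻¹)) * (y * s * y⁻¹) := by rw [hcom]
          _ = _ := by group
      rw [e1] at h3
      calc y * (s * s) * y⁻¹ = s * s * (s⁻¹ * s⁻¹ * (y * (s * s) * y⁻¹)) := by group
        _ = s * s := by rw [h3, mul_one]
    refine center_eq_one F h1 (mul_mem hsK hsK) fun z hz => ?_
    have h5 : s * s ∈ cj y K₁ := by
      rw [← h4]
      exact conj_mem_cj (mul_mem hsK hsK)
    rw [← F.comm K₁ h1 _ (F.conj K₁ h1 y) (Ne.symm hcon) z hz _ h5, mul_inv_cancel_right]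
  refine not_sq h h1 h2 hne fun s hs hsE => ?_
  refine ext_pr F fun K hK => ⟨1, ?_, Pr.one K⟩
  obtain ⟨k, hk⟩ := exists_pr F hK hsE
  obtain ⟨q, hq, e⟩ := trans h h1 hK
  have hqS := h.Q_le hq
  have hkS := pr_mem_S h hK hs hsE hk
  have h3 : q⁻¹ * k * q ∈ (S : Subgroup G) ⊓ K₁ := cj_inf_S hqS (mem_inf.2 ⟨hkS, e ▸ hk.1⟩)
  have h4 := key _ h3.1 h3.2
  have h5 : k * k = 1 := by
    calc k * k = q * (q⁻¹ * k * q * (q⁻¹ * k * q)) * q⁻¹ := by group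
      _ = 1 := by rw [h4]; group
  have h6 := hk.mul hk
  rwa [h5] at h6

end Tall

end Cfsg.Agent.H720.Tall
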