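import Cfsg.Agent.H720.Tall.Inv

/-!
# S2927, task FIB: the local subgroups (helper720)
-/

set_option autoImplicit false
set_option linter.unusedSectionVars false

namespace Cfsg.Agent.H720.Tall

open Subgroup Cfsg
open Cfsg.Agent.H239.CharPLocal (CP)
open Cfsg.Agent.H226.Tall
open Cfsg.Agent.H369.Socle
open Cfsg.Agent.SignalizersComponents.Components

universe u

section general

variable {G : Type u} [Group G] [Finite G]

/-- `N(A)` normalises `O₂(A)` -/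
theorem conj_mem_O2_of_norm {A : Subgroup G} {g : G} (hg : ∀ a ∈ A, g * a * g⁻¹ ∈ A) {u : G} (hu : u ∈ O2 A) :
    g * u * g⁻¹ ∈ O2 A := by
  have hg' : g ∈ normalizer (A : Set G) := mem_normalizer_of_conj_mem hg
  have h1 : cj g (O2 A) ≤ O2 A := by
    refine le_O2 ?_ ?_ ?_
    · unfold cj
      exact (O2_isPGroup A).map _
    · intro v hv
      rw [mem_cj] at hv
      have h2 := hg _ (O2_le A hv)
      have e1 : g * (g⁻¹ * v * g) * g⁻¹ = v := by group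
      rwa [e1] at h2
    · intro a ha v hv
      rw [mem_cj] at hv ⊢
      have h2 : g⁻¹ * a * g ∈ A := by
        have := (mem_normalizer_iff.1 (inv_mem hg') a).1 ha
        rwa [inv_inv] at this
      have h3 := conj_mem_O2 h2 hv
      have e1 : g⁻¹ * a * g * (g⁻¹ * v * g) * (g⁻¹ * a * g)⁻¹ = g⁻¹ * (a * v * a⁻¹) * g := by group
      rwa [e1] at h3
  exact h1 (conj_mem_cj hu)

/-- a normal subgroup `A` of `B`: `O₂(A) ≤ O₂(B)` -/
theorem O2_mono {A B : Subgroup G} (hAB : A ≤ B) (hn : ∀ b ∈ B, ∀ a ∈ A, b * a * b⁻¹ ∈ A) : O2 A ≤ O2 B :=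
  le_O2 (O2_isPGroup A) ((O2_le A).trans hAB) fun b hb _ hu => conj_mem_O2_of_norm (hn b hb) hu

end general

section Tall

variable {G : Type u} [Group G] [Finite G] {S : Sylow 2 G} {Q M Y : Subgroup G} {x : G}

/-- the projection of an intersection with `E` -/
theorem cj_prj {K N : Subgroup G} {g : G} (hN : ∀ u ∈ N, g * u * g⁻¹ ∈ N) : cj g (prj K N) ≤ prj (cj g K) N := by
  intro v hv
  rw [mem_cj] at hv
  obtain ⟨e, he, hp⟩ := hv
  refine ⟨_, hN e he, ?_⟩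
  have h1 := hp.conj g
  have e1 : g * (g⁻¹ * v * g) * g⁻¹ = v := by group
  rwa [e1] at h1

/-- a subgroup `L` over `S` that permutes the subgroups `R ^ g` suitably normalises `Sp S R` -/
theorem le_normalizer_of_stab (h : Tall S Q M Y x) {K₁ : Subgroup G} (h1 : K₁ ∈ Cm G) {L R : Subgroup G}
    (hSL : (S : Subgroup G) ≤ L) (hR : ∀ g ∈ L, cj g K₁ = K₁ → cj g R ≤ R) :
    L ≤ normalizer (Sp (S : Subgroup G) R : Set G) := by
  have F := fam h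
  intro g hg
  refine mem_normalizer_of_conj_mem fun u hu => ?_
  have h2 : Sp (S : Subgroup G) R ≤ (Sp (S : Subgroup G) R).comap (MulAut.conj g).toMonoidHom := by
    refine Sp_le fun s hs z hz => ?_
    rw [mem_comap]
    change g * z * g⁻¹ ∈ Sp (S : Subgroup G) R
    have h3 := conj_mem_cj (h := g) hz
    rw [← cj_mul] at h3
    obtain ⟨q, hq, e⟩ := trans h h1 (F.conj K₁ h1 (g * s))
    have h4 : cj (q⁻¹ * (g * s)) K₁ = K₁ := by rw [cj_mul, ← e, ← cj_mul, inv_mul_cancel, cj_one]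
    have h5 := hR _ (mul_mem (inv_mem (hSL (h.Q_le hq))) (mul_mem hg (hSL hs))) h4
    have h6 : g * z * g⁻¹ ∈ cj q R := by
      rw [mem_cj]
      apply h5
      rw [mem_cj]
      rw [mem_cj] at h3
      have e1 : (q⁻¹ * (g * s))⁻¹ * (q⁻¹ * (g * z * g⁻¹) * q) * (q⁻¹ * (g * s)) =
          (g * s)⁻¹ * (g * z * g⁻¹) * (g * s) := by group
      rwa [e1]
    exact cj_le_Sp (h.Q_le hq) h6
  exact h2 hu

theorem Sp_le_S {R : Subgroup G} (hR : R ≤ (S : Subgroup G)) : Sp (S : Subgroup G) R ≤ (S : Subgroup G) := by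
  refine Sp_le fun s hs z hz => ?_
  rw [mem_cj] at hz
  have h1 := mul_mem (mul_mem hs (hR hz)) (inv_mem hs)
  have e1 : s * (s⁻¹ * z * s) * s⁻¹ = z := by group
  rwa [e1] at h1

/-- **a local subgroup of `K₁` that does not normalise `S ∩ K₁`** -/
theorem loc_K (h : Tall S Q M Y x) {K₁ : Subgroup G} (h1 : K₁ ∈ Cm G) :
    ∃ R : Subgroup G, R ≠ ⊥ ∧ R ≤ (S : Subgroup G) ⊓ K₁ ∧
      (∀ s ∈ (S : Subgroup G), cj s K₁ = K₁ → cj s R ≤ R) ∧
      ¬ ∀ k ∈ K₁, (∀ r ∈ R, k * r * k⁻¹ ∈ R) → ∀ s ∈ (S : Subgroup G) ⊓ K₁, k * s * k⁻¹ ∈ (S : Subgroup G) ⊓ K₁ := by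
  have F := fam h
  have hn := EE_normal h
  obtain ⟨L, hL, hSL, hno⟩ := exists_local h
  have hO := O2_ne_bot_of_local hL.1
  obtain ⟨b, hb, hbS⟩ := exists_ci h
  have hbO := mem_centralizer_O2 h hSL hO hbS
  set R₀ : Subgroup G := O2 L ⊓ EE G with hR₀
  have hR₀n : ∀ g ∈ L, ∀ u ∈ R₀, g * u * g⁻¹ ∈ R₀ := fun g hg u hu =>
    mem_inf.2 ⟨conj_mem_O2 hg hu.1, hn.conj_mem u hu.2 g⟩
  have hbR : b ∈ R₀ := mem_inf.2 ⟨hbO, hb⟩
  have hR₀S : R₀ ≤ (S : Subgroup G) ⊓ EE G := inf_le_inf_right _ (O2_le_sylow hSL)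
  have hstab : ∀ g ∈ L, cj g K₁ = K₁ → cj g (prj K₁ R₀) ≤ prj K₁ R₀ := by
    intro g hg e
    have h3 := cj_prj (K := K₁) (hR₀n g hg)
    rwa [e] at h3
  refine ⟨prj K₁ R₀, ?_, ?_, fun s hs e => hstab s (hSL hs) e, ?_⟩
  · -- nontrivial
    intro hbot
    apply hbS.1
    refine ext_pr F fun K hK => ⟨1, ?_, Pr.one K⟩
    obtain ⟨k, hk⟩ := exists_pr F hK hb
    obtain ⟨q, hq, e⟩ := trans h hK h1
    have h3 := hk.conj q
    rw [e, hbS.2.2 q (h.Q_le hq), mul_inv_cancel_right] at h3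
    have h4 : q * k * q⁻¹ ∈ prj K₁ R₀ := ⟨b, hbR, h3⟩
    rw [hbot, mem_bot] at h4
    have h5 : k = 1 := by
      calc k = q⁻¹ * (q * k * q⁻¹) * q := by group
        _ = 1 := by rw [h4]; group
    rwa [h5] at hk
  · -- in `S`
    rintro k ⟨e, he, hp⟩
    have h3 := hR₀S he
    exact mem_inf.2 ⟨pr_mem_S h h1 h3.1 h3.2 hp, hp.1⟩
  · intro hcon
    apply hno
    -- the same for all components
    have hall : ∀ K ∈ Cm G, ∀ k ∈ K, (∀ r ∈ prj K R₀, k * r * k⁻¹ ∈ prj K R₀) →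
        ∀ s ∈ (S : Subgroup G) ⊓ K, k * s * k⁻¹ ∈ (S : Subgroup G) ⊓ K := by
      intro K hK k hk hkR s hs
      obtain ⟨q, hq, e⟩ := trans h h1 hK
      have hqL := hSL (h.Q_le hq)
      have h3 : ∀ r ∈ prj K₁ R₀, (q⁻¹ * k * q) * r * (q⁻¹ * k * q)⁻¹ ∈ prj K₁ R₀ := by
        intro r hr
        have h4 : q * r * q⁻¹ ∈ prj K R₀ := by
          have := cj_prj (K := K₁) (hR₀n q hqL) (conj_mem_cj hr)
          rwa [e] at this
        have h5 := hkR _ h4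
        have e2 : cj q⁻¹ K = K₁ := by rw [← e, ← cj_mul, inv_mul_cancel, cj_one]
        have h6 := cj_prj (K := K) (hR₀n q⁻¹ (inv_mem hqL)) (conj_mem_cj h5)
        rw [e2] at h6
        have e3 : (q⁻¹ * k * q) * r * (q⁻¹ * k * q)⁻¹ = q⁻¹ * (k * (q * r * q⁻¹) * k⁻¹) * q⁻¹⁻¹ := by group
        rw [e3]
        exact h6
      have hk1 : q⁻¹ * k * q ∈ K₁ := mem_cj.1 (e ▸ hk)
      have h4 := hcon _ hk1 h3 _ (cj_inf_S (h.Q_le hq) (e.symm ▸ hs))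
      have h5 : q * ((q⁻¹ * k * q) * (q⁻¹ * s * q) * (q⁻¹ * k * q)⁻¹) * q⁻¹ = k * s * k⁻¹ := by group
      rw [← h5]
      exact mem_inf.2 ⟨mul_mem (mul_mem (h.Q_le hq) h4.1) (inv_mem (h.Q_le hq)), e ▸ conj_mem_cj h4.2⟩
    -- `S ∩ E` is normal in `L ∩ E`
    have hle : (S : Subgroup G) ⊓ EE G ≤ L ⊓ EE G := inf_le_inf_right _ hSL
    have hnorm : ∀ g ∈ L ⊓ EE G, ∀ s ∈ (S : Subgroup G) ⊓ EE G, g * s * g⁻¹ ∈ (S : Subgroup G) ⊓ EE G := by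
      intro g hg s hs
      refine mem_inf.2 ⟨mem_S_of_pr h fun K hK => ?_, hn.conj_mem s hs.2 g⟩
      obtain ⟨k, hk⟩ := exists_pr F hK hg.2
      obtain ⟨t, ht⟩ := exists_pr F hK hs.2
      have htS := pr_mem_S h hK hs.1 hs.2 ht
      refine ⟨k * t * k⁻¹, ?_, (hk.mul ht).mul hk.inv⟩
      refine (hall K hK k hk.1 ?_ t (mem_inf.2 ⟨htS, ht.1⟩)).1
      rintro r ⟨e, he, hp⟩
      exact ⟨_, hR₀n g hg.1 e he, (hk.mul hp).mul hk.inv⟩
    have hO2 : O2 (L ⊓ EE G) = (S : Subgroup G) ⊓ EE G := by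
      refine sylow_max (S := S) hn.isSubnormal (O2_isPGroup _) ((O2_le _).trans inf_le_right) ?_
      exact le_O2 (S.isPGroup'.to_le inf_le_left) hle hnorm
    intro g hg
    rw [← hO2]
    refine mem_normalizer_of_conj_mem fun u hu => ?_
    refine conj_mem_O2_of_norm (fun a ha => ?_) hu
    exact mem_inf.2 ⟨mul_mem (mul_mem hg ha.1) (inv_mem hg), hn.conj_mem a ha.2 g⟩

/-- **`[Y, N_{K₁}(R)] ≤ O₂(N_{K₁}(R))`** -/
theorem Y_loc_K (h : Tall S Q M Y x) {K₁ : Subgroup G} (h1 : K₁ ∈ Cm G) {R : Subgroup G}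
    (hR1 : R ≠ ⊥) (hRS : R ≤ (S : Subgroup G) ⊓ K₁) (hst : ∀ s ∈ (S : Subgroup G), cj s K₁ = K₁ → cj s R ≤ R) :
    ∃ N : Subgroup G, IsPGroup 2 ↥N ∧ (∀ u ∈ N ⊓ K₁, ∀ r ∈ R, u * r * u⁻¹ ∈ R) ∧
      (∀ k ∈ K₁, (∀ r ∈ R, k * r * k⁻¹ ∈ R) → ∀ u ∈ N, k * u * k⁻¹ ∈ N) ∧
      (∀ k ∈ K₁, (∀ r ∈ R, k * r * k⁻¹ ∈ R) → ∀ y ∈ Y, k⁻¹ * (y * k * y⁻¹) ∈ N) := by
  have F := fam h
  have hRS' : R ≤ (S : Subgroup G) := hRS.trans inf_le_left
  have hRK : R ≤ K₁ := hRS.trans inf_le_right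
  set L : Subgroup G := normalizer (Sp (S : Subgroup G) R : Set G) with hL
  have hSL : (S : Subgroup G) ≤ L := le_normalizer_Sp
  have hSp : Sp (S : Subgroup G) R ≤ O2 L := by
    refine le_O2 (S.isPGroup'.to_le (Sp_le_S hRS')) le_normalizer fun g hg u hu => ?_
    exact (mem_normalizer_iff.1 hg u).1 hu
  have hO : O2 L ≠ ⊥ := by
    intro hb
    rw [hb] at hSp
    exact hR1 (le_bot_iff.1 (le_Sp.trans hSp))
  have hcp := cp_of_centralizer_le (h.par L hSL hO)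
  have hYO : Y ≤ O2 L := h.nct L ((O2_le_sylow h.S_le_M).trans hSL) hcp
  have hkL : ∀ k ∈ K₁, (∀ r ∈ R, k * r * k⁻¹ ∈ R) → k ∈ L := fun k hk hkR =>
    mem_normalizer_Sp F h1 hRK hst hk hkR
  refine ⟨O2 L, O2_isPGroup L, ?_, fun k hk hkR u hu => conj_mem_O2 (hkL k hk hkR) hu, ?_⟩
  · intro u hu r hr
    have h3 : u ∈ L := O2_le L hu.1
    exact Sp_inf F h1 hRK hst ((mem_normalizer_iff.1 h3 r).1 (le_Sp hr))
      (mul_mem (mul_mem hu.2 (hRK hr)) (inv_mem hu.2))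
  · intro k hk hkR y hy
    have h3 := conj_mem_O2 (inv_mem (hkL k hk hkR)) (hYO hy)
    have h4 := mul_mem h3 (inv_mem (hYO hy))
    have e1 : k⁻¹ * y * k⁻¹⁻¹ * y⁻¹ = k⁻¹ * (y * k * y⁻¹) := by group
    rwa [e1] at h4

end Tall

end Cfsg.Agent.H720.Tall
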