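import Cfsg.Agent.H226.Tall.Defs
import Cfsg.Agent.H226.ParRed
import Cfsg.Agent.H313.Red
import Cfsg.Agent.H369.Socle
import Cfsg.Agent.Lib.SolvableMinNormal
import Cfsg.Agent.S0542

/-!
# S2927, task FIB: the group has no solvable normal subgroups (helper720)
-/

set_option autoImplicit false
set_option linter.unusedSectionVars false

namespace Cfsg.Agent.H720.Tall

open Subgroup Cfsg
open Cfsg.Agent.H239.CharPLocal (CP)
open Cfsg.Agent.H226.Tall
open Cfsg.Agent.H369.Socle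

universe u

section O2

variable {G : Type u} [Group G] [Finite G]

theorem O2_le (L : Subgroup G) : O2 L ≤ L := by
  rintro _ ⟨y, -, rfl⟩
  exact y.2

theorem O2_isPGroup (L : Subgroup G) : IsPGroup 2 ↥(O2 L) := (Lib.Cores.pCore_isPGroup 2).map _

theorem conj_mem_O2 {L : Subgroup G} {g u : G} (hg : g ∈ L) (hu : u ∈ O2 L) : g * u * g⁻¹ ∈ O2 L := by
  obtain ⟨y, hy, rfl⟩ := hu
  exact ⟨⟨g, hg⟩ * y * ⟨g, hg⟩⁻¹, (Lib.Cores.pCore_normal 2).conj_mem y hy ⟨g, hg⟩, rfl⟩

theorem le_O2 {L N : Subgroup G} (hN : IsPGroup 2 N) (hNL : N ≤ L) (hn : ∀ g ∈ L, ∀ u ∈ N, g * u * g⁻¹ ∈ N) :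
    N ≤ O2 L := by
  intro u hu
  refine ⟨⟨u, hNL hu⟩, ?_, rfl⟩
  have h1 : N.subgroupOf L ≤ pCore 2 ↥L := by
    refine Lib.Cores.le_pCore ⟨fun v hv g => ?_⟩ hN.comap_subtype
    exact hn g g.2 v hv
  exact h1 (mem_subgroupOf.2 hu)

theorem O2_le_sylow {L : Subgroup G} {S : Sylow 2 G} (hS : (S : Subgroup G) ≤ L) : O2 L ≤ (S : Subgroup G) := by
  have h2 := Lib.Cores.pCore_le_sylow (S.subtype hS)
  rintro _ ⟨y, hy, rfl⟩
  exact mem_subgroupOf.1 (show y ∈ (S : Subgroup G).subgroupOf L from h2 hy)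

theorem cp_of_centralizer_le {L : Subgroup G} (h : centralizer (O2 L : Set G) ≤ O2 L) : CP 2 ↥L := by
  intro y hy
  have h1 : (y : G) ∈ O2 L := by
    apply h
    rw [mem_centralizer_iff]
    rintro _ ⟨u, hu, rfl⟩
    exact congrArg Subtype.val (mem_centralizer_iff.1 hy u hu)
  obtain ⟨z, hz, hzy⟩ := h1
  have : z = y := Subtype.ext hzy
  rwa [← this]

theorem pCore_of_top : O2 (⊤ : Subgroup G) = pCore 2 G := by
  have h := Lib.Cores.map_equiv_pCore (Subgroup.topEquiv (G := G)) 2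
  exact h

/-- a normal subgroup of characteristic 2 of the ambient group passes to centralizers of involutions -/
theorem cp_centralizer_of_cp (h : CP 2 G) {x : G} (hx : orderOf x = 2) : CP 2 ↥(centralizer ({x} : Set G)) := by
  have : Fact (Nat.Prime 2) := ⟨Nat.prime_two⟩
  refine H226.ParRed.cp_centralizer_of_cp_normalizer (p := 2) ?_
  refine SignalizersComponents.CharP.charP_normalizer (R := pCore 2 G) (X := ⊤) (Lib.Cores.pCore_isPGroup 2) ?_ ?_
    (H226.ParRed.isPGroup_zpowers hx) le_top le_top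
  · rw [normalizer_eq_top_iff.2 (Lib.Cores.pCore_normal 2)]
  · rw [top_inf_eq]
    exact h

end O2

section Tall

variable {G : Type u} [Group G] [Finite G] {S : Sylow 2 G} {Q M Y : Subgroup G} {x : G}

/-- an element of order two centralised by `S` -/
def CI (S : Sylow 2 G) (z : G) : Prop := z ≠ 1 ∧ z * z = 1 ∧ ∀ s ∈ (S : Subgroup G), s * z = z * s

theorem exists_CI {N : Subgroup G} (hN : IsPGroup 2 N) (hN1 : N ≠ ⊥)
    (hn : ∀ s ∈ (S : Subgroup G), ∀ d ∈ N, s * d * s⁻¹ ∈ N) : ∃ z ∈ N, CI S z := by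
  obtain ⟨u, hu, h1, h2, h3⟩ := Cfsg.Agent.H313.Red.exists_central_inv (S : Subgroup G) N S.isPGroup' hN hN1 hn
  exact ⟨u, hu, h1, h2, h3⟩

theorem CI.orderOf {z : G} (h : CI S z) : orderOf z = 2 :=
  orderOf_eq_prime (by rw [pow_two]; exact h.2.1) h.1

theorem CI.mem_Q (h : Tall S Q M Y x) {z : G} (hz : CI S z) : z ∈ Q :=
  h.zS z hz.2.2 ⟨1, by rw [pow_one, pow_two]; exact hz.2.1⟩

theorem CI.mem_S (h : Tall S Q M Y x) {z : G} (hz : CI S z) : z ∈ (S : Subgroup G) := h.Q_le (hz.mem_Q h)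

theorem CI.good (h : Tall S Q M Y x) {z : G} (hz : CI S z) :
    centralizer ({z} : Set G) ≤ normalizer (Q : Set G) ∧ CP 2 ↥(centralizer ({z} : Set G)) :=
  h.good z (hz.mem_Q h) hz.1 fun q hq => hz.2.2 q (h.Q_le hq)

theorem pCore_eq_bot (h : Tall S Q M Y x) : pCore 2 G = ⊥ := by
  by_contra h1
  apply h.x_bad
  refine cp_centralizer_of_cp ?_ h.x_ord
  have h2 := h.par ⊤ le_top (by rw [pCore_of_top]; exact h1)
  rw [pCore_of_top] at h2
  exact h2

/-- the conjugation on a normal subgroup is the inversion -/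
theorem inv_of_fpf {D : Subgroup G} [hD : D.Normal] {z : G} (hz : z * z = 1)
    (h0 : D ⊓ centralizer ({z} : Set G) = ⊥) {d : G} (hd : d ∈ D) : z * d * z⁻¹ = d⁻¹ := by
  have hf : MonoidHom.FixedPointFree (MulAut.conjNormal z : MulAut D) := by
    intro y hy
    have h1 : (y : G) ∈ D ⊓ centralizer ({z} : Set G) := by
      refine Subgroup.mem_inf.2 ⟨y.2, ?_⟩
      rw [mem_centralizer_singleton_iff]
      have h2 := congrArg Subtype.val hy
      rw [MulAut.conjNormal_apply] at h2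
      rw [mul_inv_eq_iff_eq_mul] at h2
      exact h2.symm
    rw [h0, mem_bot] at h1
    exact Subtype.ext h1
  have hi : Function.Involutive (MulAut.conjNormal z : MulAut D) := by
    intro y
    apply Subtype.ext
    rw [MulAut.conjNormal_apply, MulAut.conjNormal_apply]
    have h3 : z⁻¹ = z := inv_eq_of_mul_eq_one_left hz
    rw [h3]
    calc z * (z * (y : G) * z) * z = (z * z) * y * (z * z) := by group
      _ = y := by rw [hz]; group
  have h4 := congrFun (hf.coe_eq_inv_of_involutive hi) ⟨d, hd⟩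
  have h5 := congrArg Subtype.val h4
  rw [MulAut.conjNormal_apply] at h5
  exact h5

theorem mem_centralizer_O2 {L : Subgroup G} (h : Tall S Q M Y x) (hS : (S : Subgroup G) ≤ L) (hL : O2 L ≠ ⊥)
    {z : G} (hz : CI S z) : z ∈ O2 L := by
  apply h.par L hS hL
  rw [mem_centralizer_iff]
  intro u hu
  exact hz.2.2 u (O2_le_sylow hS hu)

theorem O2_ne_bot_of_local {L : Subgroup G} (hL : IsTwoLocal L) : O2 L ≠ ⊥ := by
  obtain ⟨T, hT, hT1, rfl⟩ := hL
  intro h
  apply hT1
  rw [eq_bot_iff, ← h]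
  exact le_O2 hT le_normalizer fun g hg u hu => (mem_normalizer_iff.1 hg u).1 hu

/-- normal subgroups of odd order are trivial -/
theorem odd_normal (h : Tall S Q M Y x) (D : Subgroup G) [hDn : D.Normal] (hD : ¬ 2 ∣ Nat.card D) : D = ⊥ := by
  have : Fact (Nat.Prime 2) := ⟨Nat.prime_two⟩
  by_contra hD1
  have hfree : ∀ z : G, CI S z → D ⊓ centralizer ({z} : Set G) = ⊥ := fun z hz =>
    H226.ParRed.inf_centralizer_eq_bot (p := 2) hDn hD (hz.good h).2
  have hSbot : (S : Subgroup G) ≠ ⊥ := by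
    intro h1
    have h2 : 2 ∣ Nat.card G := by rw [← h.x_ord]; exact orderOf_dvd_natCard x
    have h3 := S.dvd_card_of_dvd_card h2
    rw [h1, Subgroup.card_bot] at h3
    norm_num at h3
  obtain ⟨z, -, hz⟩ := exists_CI (S := S) S.isPGroup' hSbot
    (fun s hs d hd => mul_mem (mul_mem hs hd) (inv_mem hs))
  have hinv : ∀ d ∈ D, z * d * z⁻¹ = d⁻¹ := fun d hd => inv_of_fpf hz.2.1 (hfree z hz) hd
  have key : ∀ L : Subgroup G, IsMaximalTwoLocal L → (S : Subgroup G) ≤ L →
      L = normalizer ((zpowers z : Subgroup G) : Set G) := by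
    intro L hL hSL
    have hO := O2_ne_bot_of_local hL.1
    have hzO := mem_centralizer_O2 h hSL hO hz
    -- the intersection of `O₂(L)` with `C(D)` is trivial
    have h0 : O2 L ⊓ centralizer (D : Set G) = ⊥ := by
      by_contra hne
      obtain ⟨w, hw, hwz⟩ := exists_CI (S := S) ((O2_isPGroup L).to_le inf_le_left) hne (by
        intro s hs d hd
        refine ⟨conj_mem_O2 (hSL hs) hd.1, ?_⟩
        have hn : (centralizer (D : Set G)).Normal := inferInstance
        exact hn.conj_mem d hd.2 s)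
      apply hD1
      rw [eq_bot_iff, ← hfree w hwz]
      refine le_inf le_rfl fun d hd => ?_
      rw [mem_centralizer_singleton_iff]
      exact (mem_centralizer_iff.1 hw.2 d hd)
    have hle : L ≤ centralizer ({z} : Set G) := by
      intro g hg
      have h1 : g * z * g⁻¹ * z⁻¹ ∈ O2 L ⊓ centralizer (D : Set G) := by
        refine Subgroup.mem_inf.2 ⟨mul_mem (conj_mem_O2 hg hzO) (inv_mem hzO), ?_⟩
        rw [mem_centralizer_iff]
        intro d hd
        have h2 : z⁻¹ * d * z = d⁻¹ := by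
          have h3 := hinv d⁻¹ (inv_mem hd)
          rw [inv_inv] at h3
          calc z⁻¹ * d * z = z⁻¹ * (z * d⁻¹ * z⁻¹) * z := by rw [h3]
            _ = d⁻¹ := by group
        have h4 : g⁻¹ * d⁻¹ * g ∈ D := by
          have := hDn.conj_mem d⁻¹ (inv_mem hd) g⁻¹
          rwa [inv_inv] at this
        have h5 := hinv _ h4
        -- `g z g⁻¹ z⁻¹ d = d g z g⁻¹ z⁻¹`
        have h6 : z⁻¹ * d = d⁻¹ * z⁻¹ := by
          rw [← h2]; group
        have h7 : g * z * g⁻¹ * d⁻¹ = d * (g * z * g⁻¹) := by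
          have h8 : z * (g⁻¹ * d⁻¹ * g) = (g⁻¹ * d⁻¹ * g)⁻¹ * z := by
            rw [← h5]; group
          calc g * z * g⁻¹ * d⁻¹ = g * (z * (g⁻¹ * d⁻¹ * g)) * g⁻¹ := by group
            _ = g * ((g⁻¹ * d⁻¹ * g)⁻¹ * z) * g⁻¹ := by rw [h8]
            _ = d * (g * z * g⁻¹) := by group
        calc d * (g * z * g⁻¹ * z⁻¹) = (d * (g * z * g⁻¹)) * z⁻¹ := by group
          _ = (g * z * g⁻¹ * d⁻¹) * z⁻¹ := by rw [h7]
          _ = g * z * g⁻¹ * (d⁻¹ * z⁻¹) := by group
          _ = g * z * g⁻¹ * (z⁻¹ * d) := by rw [h6]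
          _ = g * z * g⁻¹ * z⁻¹ * d := by group
      rw [h0, mem_bot] at h1
      rw [mem_centralizer_singleton_iff]
      rw [mul_inv_eq_one, mul_inv_eq_iff_eq_mul] at h1
      exact h1
    have hloc : IsTwoLocal (normalizer ((zpowers z : Subgroup G) : Set G)) :=
      ⟨zpowers z, H226.ParRed.isPGroup_zpowers hz.orderOf, H226.ParRed.zpowers_ne_bot hz.orderOf, rfl⟩
    exact (hL.2 _ hloc (hle.trans (H226.ParRed.centralizer_le_normalizer_zpowers z))).symm
  obtain ⟨M₁, M₂, hne, h1, h2, h3, h4⟩ := h.two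
  exact hne ((key M₁ h1 h3).trans (key M₂ h2 h4).symm)

/-- **no solvable normal subgroups** -/
theorem noSol (h : Tall S Q M Y x) : NoSol G := by
  intro K hK hs
  by_contra hne
  have : Nontrivial K := (Subgroup.nontrivial_iff_ne_bot K).2 hne
  obtain ⟨q, hq, N, hNc, -, hNp, hN1⟩ := Lib.SolvableMinNormal.exists_characteristic_pgroup (G := K)
  have hNn : (N.map K.subtype).Normal := inferInstance
  have hNb : N.map K.subtype ≠ ⊥ := by
    rw [Ne, Subgroup.map_eq_bot_iff_of_injective _ K.subtype_injective]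
    exact hN1
  have hp : IsPGroup q (N.map K.subtype) := hNp.map _
  have : Fact q.Prime := ⟨hq⟩
  by_cases h2 : q = 2
  · subst h2
    have h3 := Lib.Cores.le_pCore hNn hp
    rw [pCore_eq_bot h] at h3
    exact hNb (le_bot_iff.1 h3)
  · apply hNb
    refine odd_normal h _ ?_
    obtain ⟨n, hn⟩ := IsPGroup.iff_card.1 hp
    rw [hn]
    intro h3
    exact h2 ((Nat.prime_dvd_prime_iff_eq Nat.prime_two hq).1 (Nat.prime_two.dvd_of_dvd_pow h3)).symm

end Tall

end Cfsg.Agent.H720.Tall
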